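/-
Lyons' theorem: the two local configurations.
-/
import Cfsg.Agent.Lib.Ly.T0
import Cfsg.Agent.Lib.Blk.ZStar

set_option autoImplicit false

namespace CA.Ly

open Cfsg Subgroup CA

variable {G : Type*} [Group G]

/-- `n` acts on `T/Z` as `δ ^ i` -/
def Act (ι : T0 →* G) (n : G) (i : ℕ) : Prop := ∀ x, ∃ z, z * z = 1 ∧ n * ι x * n⁻¹ = ι (δ^[i] x * z)

/-- facts common to both configurations -/
structure Su (ι : T0 →* G) : Prop where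
  inj : Function.Injective ι
  syl : SylowIn 2 ι.range ⊤
  cy : ∀ y : T0, y * y ≠ 1 → NormalPCompl 2 𝐂[ι y] ∧ (piCoreOf {2}ᶜ 𝐂[ι y]).relIndex 𝐂[ι y] = 16

/-- automizer of order 3 -/
structure S3 (ι : T0 →* G) (d : G) : Prop extends Su ι where
  hd : Act ι d 5
  fus : ∀ g x y, g * ι x * g⁻¹ = ι y → ∃ i < 3, ∃ z, z * z = 1 ∧ y = δ^[5 * i] x * z
  cz : NormalPCompl 2 𝐂[ι z0] ∧ (piCoreOf {2}ᶜ 𝐂[ι z0]).relIndex 𝐂[ι z0] = 64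

/-- automizer of order 15 -/
structure S15 (ι : T0 →* G) (d : G) : Prop extends Su ι where
  odd : Odd (orderOf d)
  hd : ∀ x, d * ι x * d⁻¹ = ι (δ x)
  d15 : d ^ 15 ∈ piCoreOf {2}ᶜ 𝐂[ι z0]
  cz : ∀ g ∈ 𝐂[ι z0], ∃ k ∈ piCoreOf {2}ᶜ 𝐂[ι z0], ∃ x, ∃ j < 5, g = k * ι x * d ^ (3 * j)

end CA.Ly
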