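/-
Lyons' theorem: general character theoretic lemmas.
-/
import Cfsg.Agent.Lib.Ly.Defs
import Cfsg.Agent.Lib.Zas.Burn

set_option autoImplicit false
set_option linter.unusedSectionVars false

namespace CA.Ly

open Cfsg Subgroup CA CA.Ch CA.Blk Finset
open scoped ComplexConjugate

variable {G : Type*} [Group G] [Finite G]

/-- rounding -/
noncomputable def zz (w : ℂ) : ℤ := ⌊w.re⌋
theorem zz_cast (n : ℤ) : zz n = n := by simp [zz]
theorem zz_spec {w : ℂ} (h : ∃ n : ℤ, w = n) : (zz w : ℂ) = w := by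
  obtain ⟨n, rfl⟩ := h; rw [zz_cast]

/-- inner products of columns of the principal block -/
noncomputable def KK (g s : G) : ℂ := ∑ χ ∈ B0 G 2, χ g * conj (χ s)

theorem KK_zero {g s : G} (h : ¬ IsConj (constt {2} g) (constt {2} s)) : KK g s = 0 := sum_B0_eq_zero h

theorem cls_eq [Fintype G] (t s : G) :
    Nat.card G * ∑ χ ∈ B0 G 2, χ t * χ t / χ 1 * conj (χ s) = ∑ y, KK (y * t * y⁻¹ * t) s := by
  unfold KK
  rw [sum_comm, mul_sum]
  refine sum_congr rfl fun χ hχ => ?_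
  have n0 := (irr_of_B0 hχ).ne_zero_one
  have := sum_conj_irr (irr_of_B0 hχ) t t
  rw [← sum_mul]
  field_simp
  linear_combination (-conj (χ s)) * this

theorem ne_zero_of_B0 {χ : G → ℂ} (h : χ ∈ B0 G 2) {t : G} (ht : ¬ 2 ∣ (𝐂[t]).index) : χ t ≠ 0 := fun h0 => by
  classical
  haveI := Fintype.ofFinite G
  have hi := irr_of_B0 h
  have := (mem_B0.1 h).2 (mkA fun g => if IsConj t g then 1 else 0) (fun g => by
    rw [co_mkA]; split_ifs; exacts [oi_one 2, oi_zero 2]) (cen_mkA fun a b => by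
      have : IsConj t (b * a * b⁻¹) ↔ IsConj t a :=
        ⟨fun h => h.trans (isConj_iff.2 ⟨b, rfl⟩).symm, fun h => h.trans (isConj_iff.2 ⟨b, rfl⟩)⟩
      simp only [this])
  simp only [om, tau_def, co_mkA] at this
  rw [sum_eq_zero fun g _ => by split_ifs with hg; exacts [by rw [← hi.isCF.of_isConj hg, h0, mul_zero], zero_mul _]]
    at this
  simp only [Pi.one_apply, mul_one, div_one, zero_div, zero_sub, sum_boole] at this
  have e : (univ.filter fun g => IsConj t g).card = (𝐂[t]).index := by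
    rw [← Zas.card_isConj, Nat.card_eq_fintype_card, Fintype.card_subtype]
  rw [e] at this
  exact ht (pi_natCast_iff.1 (by simpa using this.neg))

theorem galois_mem_B0 {χ : G → ℂ} (h : χ ∈ B0 G 2) (σ : ℂ →+* ℂ) : σ ∘ χ ∈ B0 G 2 := by
  haveI := Fintype.ofFinite G
  have hi := irr_of_B0 h
  rw [mem_B0_iff (hi.ringHom σ)]
  rw [mem_B0_iff hi] at h
  have : ⟪σ ∘ χ, regI G 2⟫ = σ ⟪χ, regI G 2⟫ := by
    simp only [ip_def, map_mul, map_inv₀, map_natCast, map_sum, Function.comp_apply]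
    congr 1
    exact sum_congr rfl fun g _ => by unfold regI; split_ifs <;> simp
  rw [this]
  exact (map_ne_zero σ).2 h

/-- powers of an element of order dividing `n + 1` -/
def hz {M : Type*} [Group M] (n : ℕ) (g : M) (h : g ^ (n + 1) = 1) : Multiplicative (Fin (n + 1)) →* M where
  toFun i := g ^ (Multiplicative.toAdd i).val
  map_one' := pow_zero g
  map_mul' a b := by rw [toAdd_mul, Fin.val_add, ← pow_eq_pow_mod _ h, pow_add]

theorem hz_apply {M : Type*} [Group M] (n : ℕ) (g : M) (h : g ^ (n + 1) = 1) (i : Multiplicative (Fin (n + 1))) :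
    hz n g h i = g ^ (Multiplicative.toAdd i).val := rfl

theorem int2 {χ : G → ℂ} (hχ : IsVC χ) {n m : ℕ} {a b : G} (ha : a ^ (n + 1) = 1) (hb : b ^ (m + 1) = 1)
    (hab : Commute a b) {u v : ℂˣ} (hu : u ^ (n + 1) = 1) (hv : v ^ (m + 1) = 1) : ∃ N : ℤ,
    ∑ i : Fin (n + 1), ∑ j : Fin (m + 1), χ (a ^ i.val * b ^ j.val) * (u ^ i.val * v ^ j.val) =
      (n + 1) * (m + 1) * N := by
  obtain ⟨N, hN⟩ := (hχ.comp ((hz n a ha).noncommCoprod (hz m b hb) fun i j => hab.pow_pow _ _)).ip_int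
    (isVC_lin ((hz n u hu).coprod (hz m v hv))).star
  refine ⟨N, ?_⟩
  rw [ip_def, inv_mul_eq_iff_eq_mul₀ (Ch.card_ne_zero' _), Fintype.sum_prod_type] at hN
  convert hN using 1
  · refine (Equiv.sum_comp Multiplicative.toAdd _).symm.trans (sum_congr rfl fun i _ => ?_)
    refine (Equiv.sum_comp Multiplicative.toAdd _).symm.trans (sum_congr rfl fun j _ => ?_)
    simp [hz_apply]
    rfl
  · simp

/-- a character without fixed vectors of a four-group -/
theorem sum_four {χ : G → ℂ} (hχ : IsIrr χ) {a b : G} (ha : a * a = 1) (hb : b * b = 1) (hab : b * a = a * b)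
    (h : χ 1 + χ a + χ b + χ (a * b) = 0) (g : G) : χ g + χ (a * g) + χ (b * g) + χ (a * b * g) = 0 := by
  haveI := Fintype.ofFinite G
  have key : ∀ u v : G, χ 1 * ∑ g, χ (u * g) * conj (χ (v * g)) = Nat.card G * χ (u * v⁻¹) := fun u v => by
    have h1 := hχ.central_mul hχ.isCF.star (u * v⁻¹)
    have h2 := hχ.ip_self
    rw [ip_def, inv_mul_eq_iff_eq_mul₀ (Ch.card_ne_zero' _), mul_one] at h2
    rw [← h2, ← Equiv.sum_comp (Equiv.mulLeft v⁻¹)]
    convert h1 using 2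
    · exact sum_congr rfl fun g _ => by simp [mul_comm, hχ.isCF.comm g, mul_assoc]
    · exact sum_congr rfl fun g _ => by simp [mul_comm]
  have e1 : a * b * (a * b) = 1 := by rw [mul_assoc, ← mul_assoc b, hab, mul_assoc, hb, mul_one, ha]
  have e2 : a * (a * b) = b := Inv.mul_mul_cancel ha b
  have e3 : b * (a * b) = a := by rw [← hab, Inv.mul_mul_cancel hb]
  have e4 : a * b * a = b := by rw [mul_assoc, hab, e2]
  have e5 : a * b * b = a := Inv.mul_cancel_right hb a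
  have : χ 1 * ∑ g, (χ (1 * g) + χ (a * g) + χ (b * g) + χ (a * b * g)) *
      conj (χ (1 * g) + χ (a * g) + χ (b * g) + χ (a * b * g)) = 0 := by
    simp only [map_add, mul_add, add_mul, sum_add_distrib, key, Inv.inv_eq_self ha, Inv.inv_eq_self hb,
      Inv.inv_eq_self e1, inv_one, mul_one, ha, hb, hab, e1, e2, e3, e4, e5]
    simp only [one_mul]
    linear_combination (4 * Nat.card G : ℂ) * h
  simp only [mul_eq_zero, hχ.ne_zero_one, false_or, one_mul, Complex.mul_conj] at this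
  have := (sum_eq_zero_iff_of_nonneg fun g _ => Complex.normSq_nonneg _).1 (by exact_mod_cast this) g (mem_univ _)
  exact Complex.normSq_eq_zero.1 this

theorem eq_one_of_apply [IsSimpleGroup G] {χ : G → ℂ} (h : IsIrr χ) (h1 : χ ≠ 1) {g : G} (hg : χ g = χ 1) :
    g = 1 := by
  have := (h.isCF.cfker_normal.eq_bot_or_eq_top).resolve_right (h.cfker_ne_top h1)
  exact mem_bot.1 (this ▸ h.mem_cfker.2 hg)

theorem int_bounds {χ : G → ℂ} (h : IsIrr χ) {g : G} {x t : ℤ} (hx : χ 1 = x) (ht : χ g = t) :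
    0 < x ∧ -x ≤ t ∧ t ≤ x := by
  obtain ⟨n, hn, e⟩ := h.nat
  have e' : x = n := by exact_mod_cast hx.symm.trans e
  have := h.isChar.norm_le g
  rw [hx, ht, Complex.norm_intCast, Complex.norm_intCast] at this
  have : |t| ≤ |x| := by exact_mod_cast this
  rw [abs_of_nonneg (by omega : 0 ≤ x), abs_le] at this
  omega

theorem piElt_T0 (x : T0) : PiElt {2} x :=
  piElt_of_pow_eq_one (piNum_singleton_pow Nat.prime_two 2) (by rw [← sq_sq x]; simp [pow_succ, mul_assoc])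

theorem eq_inv_T0 : ∀ x y : T0, x * x = 1 → x * y * x⁻¹ = y⁻¹ → y * y = 1 := by decide +kernel

/-- linear characters of `T0` -/
def muZ (w : ℕ) (x : T0) : ℤ :=
  if ((x.c &&& w) % 2 + (x.c &&& w) / 2 % 2 + (x.c &&& w) / 4 % 2 + (x.c &&& w) / 8 % 2) % 2 = 0 then 1 else -1
theorem muZ_mul : ∀ w < 16, ∀ x y, muZ w (x * y) = muZ w x * muZ w y := by decide +kernel
theorem isChar_mu {w : ℕ} (hw : w < 16) : IsChar fun x => (muZ w x : ℂ) :=
  isChar_lin (MonoidHom.toHomUnits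
    { toFun := fun x => (muZ w x : ℂ)
      map_one' := by simp [muZ, c_one]
      map_mul' := fun x y => by rw [muZ_mul w hw]; push_cast; rfl })

theorem res_mu {χ : G → ℂ} (hχ : IsChar χ) (ι : T0 →* G) {k : ℕ} (cls : T0 → Fin k) (v : Fin k → ℂ)
    (h : ∀ x, χ (ι x) = v (cls x)) {w : ℕ} (hw : w < 16) :
    ∃ m : ℕ, ∑ i, v i * (∑ x with cls x = i, muZ w x : ℤ) = 64 * m := by
  obtain ⟨m, hm⟩ := (hχ.comp ι).ip_nat (isChar_mu hw)
  refine ⟨m, ?_⟩
  rw [ip_def, inv_mul_eq_iff_eq_mul₀ (Ch.card_ne_zero' _), card_T0, ← sum_fiberwise univ cls] at hm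
  refine Eq.trans (sum_congr rfl fun i _ => ?_) hm
  push_cast
  rw [mul_sum]
  exact sum_congr rfl fun x hx => by simp [h, (mem_filter.1 hx).2]

theorem res_A {χ : G → ℂ} (hχ : IsChar χ) (ι : T0 →* G) {τ c : ℂ} (h1 : ∀ z, z * z = 1 → z ≠ 1 → χ (ι z) = τ)
    (h2 : ∀ y, y * y0 = y0 * y → y * y ≠ 1 → χ (ι y) = c) : ∃ N : ℤ, χ 1 - τ = 16 * N := by
  obtain ⟨N, hN⟩ := int2 (hχ.comp ι).isVC (n := 3) (m := 3) (a := el 1) (b := el 6) (by decide +kernel)
    (by decide +kernel) (by unfold Commute SemiconjBy; decide +kernel)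
    (u := Units.mk0 Complex.I Complex.I_ne_zero) (v := 1) (Units.ext (by simp)) (one_pow _)
  refine ⟨N, ?_⟩
  have k : ∀ i j : Fin 4, (χ ∘ ι) (el 1 ^ i.val * el 6 ^ j.val) =
      if i.val % 2 = 0 ∧ j.val % 2 = 0 then (if i = 0 ∧ j = 0 then χ 1 else τ) else c := fun i j => by
    split_ifs with a b
    · simp [b]
    · exact h1 _ (by revert i j; decide +kernel) (by revert i j; decide +kernel)
    · exact h2 _ (by revert i j; decide +kernel) (by revert i j; decide +kernel)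
  simp only [k] at hN
  simp [Fin.sum_univ_succ, pow_succ] at hN
  linear_combination hN

namespace Su
variable {ι : T0 →* G} (h : Su ι)
include h

omit h in
theorem cst (x : T0) : constt {2} (ι x) = ι x := constt_eq_self ((piElt_T0 x).map ι)

theorem sq_of_isConj {x y : T0} (hx : x * x = 1) (e : IsConj (ι x) (ι y)) : y * y = 1 := by
  obtain ⟨c, hc⟩ := isConj_iff.1 e
  apply h.inj
  rw [map_mul, ← hc, conj_mul, ← map_mul, hx]; simp

theorem no_d8 {a b : G} (ha : a * a = 1) (hb : b * b = 1) {y : T0} (e : IsConj (constt {2} (a * b)) (ι y)) :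
    y * y = 1 := by
  obtain ⟨k, hk⟩ := mem_zpowers_iff.1 (constt_mem_zpowers {2} (a * b))
  set u := constt {2} (a * b)
  have e1 : a * u * a⁻¹ = u⁻¹ := by rw [← hk, Inv.conj_zpow_left ha hb, zpow_neg]
  have hP : PiGrp {2} (zpowers u ⊔ zpowers a) :=
    (piGrp_zpowers.2 (constt_piElt _ _)).sup (piGrp_zpowers.2 (piElt_two_of_sq ha)) (.inl (zpowers_le.2
      (mem_normalizer_of_cj_le (cj_le_iff'.2 fun x hx => by
        obtain ⟨j, rfl⟩ := mem_zpowers_iff.1 hx
        rw [← conj_zpow, e1]; exact zpow_mem (inv_mem (mem_zpowers u)) j))))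
  obtain ⟨g, -, hg⟩ := h.syl.exists_cj_le hP le_top
  obtain ⟨x, hx⟩ := cj_le_iff'.1 hg a (mem_sup_right (mem_zpowers a))
  obtain ⟨w, hw⟩ := cj_le_iff'.1 hg u (mem_sup_left (mem_zpowers u))
  refine h.sq_of_isConj (eq_inv_T0 x w (h.inj ?_) (h.inj ?_)) (hw ▸ (isConj_iff.2 ⟨g, rfl⟩).symm.trans e)
  · rw [map_mul, hx, conj_mul, ha]; simp
  · simp only [map_mul, map_inv, hx, hw]
    rw [show (g * u * g⁻¹)⁻¹ = g * u⁻¹ * g⁻¹ by group, ← e1]; group

theorem cls_y [Fintype G] {t : G} (ht : t * t = 1) {y : T0} (hy : y * y ≠ 1) :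
    ∑ χ ∈ B0 G 2, χ t * χ t / χ 1 * conj (χ (ι y)) = 0 := by
  have := cls_eq t (ι y)
  rw [sum_eq_zero fun g _ => KK_zero fun e => hy (h.no_d8 (Inv.conj_mul_self ht g) ht (by rwa [cst] at e))] at this
  exact (mul_eq_zero.1 this).resolve_left (Ch.card_ne_zero' G)

theorem tau_ne {χ : G → ℂ} (hχ : χ ∈ B0 G 2) : χ (ι z0) ≠ 0 := ne_zero_of_B0 hχ fun e =>
  h.syl.not_dvd Nat.prime_two (by
    rw [relIndex_top_right]
    refine e.trans (index_dvd_of_le ?_)
    rintro _ ⟨x, rfl⟩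
    rw [mem_centralizer_singleton_iff, ← map_mul, ← map_mul, cen_of_sq z0 (by decide +kernel)])

theorem KK_y {y : T0} (hy : y * y ≠ 1) : KK (ι y) (ι y) = 16 := by
  have := sum_B0_self ((piElt_T0 y).map ι) (h.cy y hy).1
  rw [(h.cy y hy).2] at this
  exact this

theorem KK_one {g : G} {x : T0} (hx : x ≠ 1) (hg : constt {2} g = ι x) : KK g 1 = 0 := KK_zero fun e => by
  rw [hg, constt_one, isConj_one_left] at e
  exact hx (h.inj (e.trans (map_one ι).symm))

theorem KK_zy {g : G} {z y : T0} (hz : z * z = 1) (hy : y * y ≠ 1) (hg : constt {2} g = ι z) : KK g (ι y) = 0 :=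
  KK_zero fun e => hy (h.sq_of_isConj hz (by rwa [hg, cst] at e))
end Su

end CA.Ly
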