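/-
Lyons' theorem: the three arithmetic theorems in the form used by the character theory.
-/
import Cfsg.Agent.Lib.Ly.Cert
import Cfsg.Agent.Lib.Ly.Cert15

set_option autoImplicit false

namespace CA.Ly

open Finset

section aux
variable {ι : Type*} [DecidableEq ι] {s : Finset ι} {i0 : ι}

theorem sum_erase_of {M : Type*} [AddCommGroup M] (h0 : i0 ∈ s) {f : ι → M} {a b : M} (h : ∑ i ∈ s, f i = a)
    (hb : f i0 + b = a) : ∑ i ∈ s.erase i0, f i = b := by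
  rw [← add_sum_erase s f h0] at h
  exact add_left_cancel (h.trans hb.symm)

omit [DecidableEq ι] in
theorem sq_le_of_sum {f : ι → ℤ} {a : ℤ} (h : ∑ i ∈ s, f i * f i = a) {i : ι} (hi : i ∈ s) : f i * f i ≤ a :=
  h ▸ single_le_sum (f := fun i => f i * f i) (fun _ _ => mul_self_nonneg _) hi

theorem abs_le_of {x : ℤ} (n : ℕ) {a : ℤ} (h : x * x ≤ a) (ha : a < (n + 1) * (n + 1)) : -n ≤ x ∧ x ≤ n := by
  constructor <;> nlinarith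
end aux

/-! ### the section `C(Z)/Z` -/

def kC (g1 g2 g3 : ℤ) : Kd :=
  ⟨1, g1, g2, g3, 0, 0, (4 * g1 - (g1 + g2 + g3)) ^ 3, (4 * g2 - (g1 + g2 + g3)) ^ 3, (4 * g3 - (g1 + g2 + g3)) ^ 3,
    -5 * (g1 + g2 + g3) % 16,
    if -5 * (g1 + g2 + g3) % 16 = 0 ∨ (4 * g1 - (g1 + g2 + g3) = -5 * (g1 + g2 + g3) % 16 ∧
      4 * g2 - (g1 + g2 + g3) = -5 * (g1 + g2 + g3) % 16 ∧ 4 * g3 - (g1 + g2 + g3) = -5 * (g1 + g2 + g3) % 16) then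
      -5 * (g1 + g2 + g3) % 16 + 16 else -5 * (g1 + g2 + g3) % 16, -5 * (g1 + g2 + g3) % 16 - 16⟩

theorem boxC : ∀ a ∈ Icc (-2 : ℤ) 2, ∀ b ∈ Icc (-2 : ℤ) 2, ∀ c ∈ Icc (-2 : ℤ) 2, 0 ≤ a + b + c →
    ¬ (a = 0 ∧ b = 0 ∧ c = 0) → (Bud.sub ⟨5, 4, 4, 5, 4, 5, 0, 0⟩ (kC a b c)).bad = false → kC a b c ∈ UC := by
  decide +kernel

theorem arithC' {ι : Type*} (s : Finset ι) (g1 g2 g3 x : ι → ℤ)
    (hx : ∀ i ∈ s, x i ≠ 0 ∧ (x i + 5 * (g1 i + g2 i + g3 i)) % 16 = 0 ∧ 0 ≤ g1 i + g2 i + g3 i ∧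
      ¬ (4 * g1 i - (g1 i + g2 i + g3 i) = x i ∧ 4 * g2 i - (g1 i + g2 i + g3 i) = x i ∧
        4 * g3 i - (g1 i + g2 i + g3 i) = x i))
    (g11 : ∑ i ∈ s, g1 i * g1 i = 5) (g12 : ∑ i ∈ s, g1 i * g2 i = 4) (g13 : ∑ i ∈ s, g1 i * g3 i = 4)
    (g22 : ∑ i ∈ s, g2 i * g2 i = 5) (g23 : ∑ i ∈ s, g2 i * g3 i = 4) (g33 : ∑ i ∈ s, g3 i * g3 i = 5)
    (l1 : ∑ i ∈ s, g1 i * x i = -1) (l2 : ∑ i ∈ s, g2 i * x i = -1) (l3 : ∑ i ∈ s, g3 i * x i = -1)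
    (c1 : ∑ i ∈ s, (((4 * g1 i - (g1 i + g2 i + g3 i)) ^ 3 : ℤ) : ℚ) / x i = -1)
    (c2 : ∑ i ∈ s, (((4 * g2 i - (g1 i + g2 i + g3 i)) ^ 3 : ℤ) : ℚ) / x i = -1)
    (c3 : ∑ i ∈ s, (((4 * g3 i - (g1 i + g2 i + g3 i)) ^ 3 : ℤ) : ℚ) / x i = -1) : False := by
  classical
  have key : ∀ {M : Type} [AddCommMonoid M] (f : ι → M), (∀ i, g1 i = 0 → g2 i = 0 → g3 i = 0 → f i = 0) →
      ∑ i ∈ s with ¬ (g1 i = 0 ∧ g2 i = 0 ∧ g3 i = 0), f i = ∑ i ∈ s, f i := fun f h =>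
    sum_filter_of_ne fun i _ h1 h2 => h1 (h i h2.1 h2.2.1 h2.2.2)
  refine arith (s.filter fun i => ¬ (g1 i = 0 ∧ g2 i = 0 ∧ g3 i = 0)) (fun i => kC (g1 i) (g2 i) (g3 i)) x _ _ _ _ _ _
    (by decide) goC ckC (fun i hi => ⟨by simp [Kd.Ok, kC], fun hb => ?_⟩) ?_ ?_ ?_ ?_ ?_ ?_ (by simp [kC]) (by simp [kC])
    ?_ ?_ ?_ 1 (by norm_num) ?_ ?_ ?_
  · obtain ⟨hi, h0⟩ := mem_filter.1 hi
    obtain ⟨a1, a2, a3, a4⟩ := hx i hi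
    refine ⟨boxC _ (mem_Icc.2 (abs_le_of 2 (sq_le_of_sum g11 hi) (by norm_num)))
      _ (mem_Icc.2 (abs_le_of 2 (sq_le_of_sum g22 hi) (by norm_num)))
      _ (mem_Icc.2 (abs_le_of 2 (sq_le_of_sum g33 hi) (by norm_num))) a3 h0 hb, ?_, ?_⟩
    · simp only [kC, dm0, Dm.mem]; split_ifs <;> omega
    · simp only [kC]; omega
  all_goals
    simp only [kC, one_mul]
    rw [key _ fun i h1 h2 h3 => by simp [h1, h2, h3]]
    simp only [*]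
    try norm_num

theorem arithC {ι : Type*} (s : Finset ι) (i0 : ι) (h0 : i0 ∈ s) (g1 g2 g3 x : ι → ℤ)
    (e0 : g1 i0 = 1 ∧ g2 i0 = 1 ∧ g3 i0 = 1 ∧ x i0 = 1)
    (hx : ∀ i ∈ s, 0 < x i ∧ (x i + 5 * (g1 i + g2 i + g3 i)) % 16 = 0)
    (hk : ∀ i ∈ s, i ≠ i0 → ¬ (4 * g1 i - (g1 i + g2 i + g3 i) = x i ∧ 4 * g2 i - (g1 i + g2 i + g3 i) = x i ∧
        4 * g3 i - (g1 i + g2 i + g3 i) = x i))
    (g11 : ∑ i ∈ s, g1 i * g1 i = 6) (g12 : ∑ i ∈ s, g1 i * g2 i = 5) (g13 : ∑ i ∈ s, g1 i * g3 i = 5)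
    (g22 : ∑ i ∈ s, g2 i * g2 i = 6) (g23 : ∑ i ∈ s, g2 i * g3 i = 5) (g33 : ∑ i ∈ s, g3 i * g3 i = 6)
    (l1 : ∑ i ∈ s, g1 i * x i = 0) (l2 : ∑ i ∈ s, g2 i * x i = 0) (l3 : ∑ i ∈ s, g3 i * x i = 0)
    (c1 : ∑ i ∈ s, (((4 * g1 i - (g1 i + g2 i + g3 i)) ^ 3 : ℤ) : ℚ) / x i = 0)
    (c2 : ∑ i ∈ s, (((4 * g2 i - (g1 i + g2 i + g3 i)) ^ 3 : ℤ) : ℚ) / x i = 0)
    (c3 : ∑ i ∈ s, (((4 * g3 i - (g1 i + g2 i + g3 i)) ^ 3 : ℤ) : ℚ) / x i = 0) : False := by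
  classical
  obtain ⟨sg, hs⟩ : ∃ sg : ι → ℤ, ∀ i, (sg i = 1 ∨ sg i = -1) ∧ 0 ≤ sg i * (g1 i + g2 i + g3 i) :=
    ⟨fun i => if 0 ≤ g1 i + g2 i + g3 i then 1 else -1, fun i => by beta_reduce; split_ifs <;> omega⟩
  have k1 : ∀ f g : ι → ℤ, ∑ i ∈ s.erase i0, sg i * f i * (sg i * g i) = ∑ i ∈ s.erase i0, f i * g i := fun f g =>
    sum_congr rfl fun i _ => by rcases (hs i).1 with h | h <;> rw [h] <;> ring
  have k2 : ∀ f : ι → ℤ, ∑ i ∈ s.erase i0, (((4 * (sg i * f i) - (sg i * g1 i + sg i * g2 i + sg i * g3 i)) ^ 3 : ℤ) : ℚ)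
      / (sg i * x i : ℤ) = ∑ i ∈ s.erase i0, (((4 * f i - (g1 i + g2 i + g3 i)) ^ 3 : ℤ) : ℚ) / x i := fun f =>
    sum_congr rfl fun i _ => by
      rcases (hs i).1 with h | h <;> rw [h] <;> push_cast
      · simp
      · rw [neg_one_mul (x i : ℚ), div_neg, ← neg_div]; congr 1; ring
  obtain ⟨e1, e2, e3, e4⟩ := e0
  refine arithC' (s.erase i0) (fun i => sg i * g1 i) (fun i => sg i * g2 i) (fun i => sg i * g3 i)
    (fun i => sg i * x i) (fun i hi => ?_) ?_ ?_ ?_ ?_ ?_ ?_ ?_ ?_ ?_ ?_ ?_ ?_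
  · obtain ⟨h1, hi⟩ := mem_erase.1 hi
    have := hx i hi
    have := hk i hi h1
    have h2 := (hs i).2
    rcases (hs i).1 with h | h <;> rw [h] at h2 ⊢ <;> omega
  iterate 9 rw [k1]; exact sum_erase_of h0 ‹_› (by simp [*])
  all_goals rw [k2]; exact sum_erase_of h0 ‹_› (by simp [*])

/-! ### automizer of order 3 -/

def k3 (g0 g1 g2 g3 g4 t : ℤ) : Kd :=
  ⟨1, g0, g0 + g1 + g2 + g3 + g4, t, (g1 - g0) ^ 2 + (g2 - g0) ^ 2 + (g3 - g0) ^ 2 + (g4 - g0) ^ 2,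
    (g1 - g2) ^ 2 + (g1 - g3) ^ 2 + (g1 - g4) ^ 2 + (g2 - g3) ^ 2 + (g2 - g4) ^ 2 + (g3 - g4) ^ 2,
    g0 * t * t, (g0 + g1 + g2 + g3 + g4) * t * t, 0, t, t + 16, t - 16⟩

theorem box3 : ∀ a ∈ Icc (-1 : ℤ) 1, ∀ b ∈ Icc (-1 : ℤ) 1, ∀ c ∈ Icc (-1 : ℤ) 1, ∀ d ∈ Icc (-1 : ℤ) 1,
    ∀ e ∈ Icc (-1 : ℤ) 1, ∀ t ∈ Icc (1 : ℤ) 7, (t - (a + b + c + d + e)) % 4 = 0 →
    (Bud.sub ⟨3, 11, -1, 55, -5, 63, 8, 12⟩ (k3 a b c d e t)).bad = false → k3 a b c d e t ∈ U3 := by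
  decide +kernel

theorem arith3' {ι : Type*} (s : Finset ι) (g : Fin 5 → ι → ℤ) (t x : ι → ℤ)
    (hx : ∀ i ∈ s, 0 < t i ∧ (t i - (g 0 i + g 1 i + g 2 i + g 3 i + g 4 i)) % 4 = 0 ∧ (x i - t i) % 16 = 0 ∧
      (t i < x i ∨ x i < 0))
    (gg : ∀ j k, ∑ i ∈ s, g j i * g k i = if j = k then 3 else 2) (gt : ∀ j, ∑ i ∈ s, g j i * t i = -1)
    (tt : ∑ i ∈ s, t i * t i = 63) (l : ∀ j, ∑ i ∈ s, g j i * x i = -1)
    (c : ∀ j, ∑ i ∈ s, ((g j i * t i * t i : ℤ) : ℚ) / x i = -1) (l3 : ∑ i ∈ s, t i * x i = -1) : False := by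
  have b : ∀ j, ∀ i ∈ s, g j i ∈ Icc (-1 : ℤ) 1 := fun j i hi =>
    mem_Icc.2 (abs_le_of 1 (sq_le_of_sum (gg j j) hi) (by norm_num))
  have g00 := gg 0 0; have g01 := gg 0 1; have g02 := gg 0 2; have g03 := gg 0 3; have g04 := gg 0 4
  have g11 := gg 1 1; have g12 := gg 1 2; have g13 := gg 1 3; have g14 := gg 1 4
  have g22 := gg 2 2; have g23 := gg 2 3; have g24 := gg 2 4
  have g33 := gg 3 3; have g34 := gg 3 4; have g44 := gg 4 4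
  simp only [Fin.reduceEq, if_true, if_false] at g00 g01 g02 g03 g04 g11 g12 g13 g14 g22 g23 g24 g33 g34 g44
  have lin : ∀ (a : Fin 15 → ℤ) (f : ι → ℤ), (∀ i, f i = a 0 * (g 0 i * g 0 i) + a 1 * (g 0 i * g 1 i) +
      a 2 * (g 0 i * g 2 i) + a 3 * (g 0 i * g 3 i) + a 4 * (g 0 i * g 4 i) + a 5 * (g 1 i * g 1 i) +
      a 6 * (g 1 i * g 2 i) + a 7 * (g 1 i * g 3 i) + a 8 * (g 1 i * g 4 i) + a 9 * (g 2 i * g 2 i) +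
      a 10 * (g 2 i * g 3 i) + a 11 * (g 2 i * g 4 i) + a 12 * (g 3 i * g 3 i) + a 13 * (g 3 i * g 4 i) +
      a 14 * (g 4 i * g 4 i)) → ∑ i ∈ s, f i = 3 * (a 0 + a 5 + a 9 + a 12 + a 14) +
      2 * (a 1 + a 2 + a 3 + a 4 + a 6 + a 7 + a 8 + a 10 + a 11 + a 13) := fun a f h => by
    simp only [h, sum_add_distrib, ← mul_sum, g00, g01, g02, g03, g04, g11, g12, g13, g14, g22, g23, g24, g33,
      g34, g44]; ring
  refine arith s (fun i => k3 (g 0 i) (g 1 i) (g 2 i) (g 3 i) (g 4 i) (t i)) x _ _ _ _ _ _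
    (by decide) go3 ck3 (fun i hi => ⟨⟨by simp [k3], by simp only [k3]; positivity, by simp only [k3]; positivity⟩,
      fun hb => ?_⟩) ?_ ?_ ?_ ?_ ?_ ?_ ?_ ?_ ?_ ?_ ?_ 1 (by norm_num) ?_ ?_ ?_
  · obtain ⟨a1, a2, a3, a4⟩ := hx i hi
    refine ⟨box3 _ (b 0 i hi) _ (b 1 i hi) _ (b 2 i hi) _ (b 3 i hi) _ (b 4 i hi) _
      (mem_Icc.2 ⟨a1, (abs_le_of 7 (sq_le_of_sum tt hi) (by norm_num)).2⟩) a2 hb, ?_, ?_⟩ <;>
    simp only [k3, dm0, Dm.mem] <;> omega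
  all_goals simp only [k3, one_mul]
  · exact g00
  · refine (lin ![1, 1, 1, 1, 1, 0, 0, 0, 0, 0, 0, 0, 0, 0, 0] _ fun i => ?_).trans (by simp)
    simp; ring
  · exact gt 0
  · refine (lin ![1, 2, 2, 2, 2, 1, 2, 2, 2, 1, 2, 2, 1, 2, 1] _ fun i => ?_).trans (by simp)
    simp; ring
  · simp only [add_mul, sum_add_distrib, gt]; rfl
  · exact tt
  · refine (lin ![4, -2, -2, -2, -2, 1, 0, 0, 0, 1, 0, 0, 1, 0, 1] _ fun i => ?_).trans (by simp)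
    simp; ring
  · refine (lin ![0, 0, 0, 0, 0, 3, -2, -2, -2, 3, -2, -2, 3, -2, 3] _ fun i => ?_).trans (by simp)
    simp; ring
  · exact l 0
  · simp only [add_mul, sum_add_distrib, l]; rfl
  · exact l3
  · rw [c 0]; norm_num
  · simp only [add_mul, Int.cast_add, add_div, sum_add_distrib, c]; norm_num
  · simp

theorem arith3 {ι : Type*} (s : Finset ι) (i0 : ι) (h0 : i0 ∈ s) (g : Fin 5 → ι → ℤ) (t x : ι → ℤ)
    (e0 : (∀ j, g j i0 = 1) ∧ t i0 = 1 ∧ x i0 = 1)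
    (hx : ∀ i ∈ s, 0 < x i ∧ t i ≠ 0 ∧ (t i - (g 0 i + g 1 i + g 2 i + g 3 i + g 4 i)) % 4 = 0 ∧
      (x i - t i) % 16 = 0 ∧ (i ≠ i0 → t i < x i))
    (gg : ∀ j k, ∑ i ∈ s, g j i * g k i = if j = k then 4 else 3) (gt : ∀ j, ∑ i ∈ s, g j i * t i = 0)
    (tt : ∑ i ∈ s, t i * t i = 64) (l : ∀ j, ∑ i ∈ s, g j i * x i = 0)
    (c : ∀ j, ∑ i ∈ s, ((g j i * t i * t i : ℤ) : ℚ) / x i = 0) (l3 : ∑ i ∈ s, t i * x i = 0) : False := by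
  classical
  obtain ⟨sg, hs⟩ : ∃ sg : ι → ℤ, ∀ i, (sg i = 1 ∨ sg i = -1) ∧ 0 ≤ sg i * t i :=
    ⟨fun i => if 0 ≤ t i then 1 else -1, fun i => by beta_reduce; split_ifs <;> omega⟩
  have k1 : ∀ f g : ι → ℤ, ∑ i ∈ s.erase i0, sg i * f i * (sg i * g i) = ∑ i ∈ s.erase i0, f i * g i := fun f g =>
    sum_congr rfl fun i _ => by rcases (hs i).1 with h | h <;> rw [h] <;> ring
  obtain ⟨e1, e2, e3⟩ := e0
  refine arith3' (s.erase i0) (fun j i => sg i * g j i) (fun i => sg i * t i)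
    (fun i => sg i * x i) (fun i hi => ?_) (fun j k => ?_) (fun j => ?_) ?_ (fun j => ?_) (fun j => ?_) ?_
  · obtain ⟨h1, hi⟩ := mem_erase.1 hi
    obtain ⟨a1, a2, a3, a4, a5⟩ := hx i hi
    have := a5 h1
    have h2 := (hs i).2
    rcases (hs i).1 with h | h <;> rw [h] at h2 ⊢ <;> omega
  · rw [k1]; exact sum_erase_of h0 (gg j k) (by rw [e1, e1]; split_ifs <;> rfl)
  · rw [k1]; exact sum_erase_of h0 (gt j) (by simp [*])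
  · rw [k1]; exact sum_erase_of h0 tt (by simp [*])
  · rw [k1]; exact sum_erase_of h0 (l j) (by simp [*])
  · refine (sum_congr rfl fun i _ => ?_).trans (sum_erase_of h0 (c j) (by simp [*]))
    rcases (hs i).1 with h | h <;> rw [h] <;> push_cast
    · simp
    · rw [neg_one_mul (x i : ℚ), div_neg, ← neg_div]; congr 1; ring
  · rw [k1]; exact sum_erase_of h0 l3 (by simp [*])

/-! ### automizer of order 15 -/

def orb (b1 b2 b3 b4 : ℤ) : ℤ := if b1 = b4 ∧ b2 = b3 then (if b1 = b2 then 1 else 2) else 4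
def k15' (w a b0 B p r t : ℤ) : Kd :=
  ⟨w, a, b0, B, w * (p * p), w * r, w * (a * t * t), w * (b0 * t * t), w * (B * t * t), (-3 * t - 4 * a) % 64,
    max (max 2 (t + 1)) (max (-3 * t + 60 * a) (-3 * t - 4 * a)) +
      ((-3 * t - 4 * a) % 64 - max (max 2 (t + 1)) (max (-3 * t + 60 * a) (-3 * t - 4 * a))) % 64,
    min (-2) (min (-3 * t + 60 * a) (-3 * t - 4 * a)) -
      (min (-2) (min (-3 * t + 60 * a) (-3 * t - 4 * a)) - (-3 * t - 4 * a) % 64) % 64⟩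
def k15 (a b0 b1 b2 b3 b4 : ℤ) : Kd :=
  k15' (orb b1 b2 b3 b4) a b0 (b1 + b2 + b3 + b4) (b1 + b4 - b2 - b3) ((b1 - b4) ^ 2 + (b2 - b3) ^ 2)
    (-5 * a - 4 * (b0 + b1 + b2 + b3 + b4))
def ky (b1 b2 b3 b4 : ℤ) : ℤ := 125 * b1 + 25 * b2 + 5 * b4 + b3
def Can (b1 b2 b3 b4 : ℤ) : Prop :=
  ky b1 b2 b3 b4 ≤ ky b3 b1 b4 b2 ∧ ky b1 b2 b3 b4 ≤ ky b4 b3 b2 b1 ∧ ky b1 b2 b3 b4 ≤ ky b2 b4 b1 b3
instance instDecCan (b1 b2 b3 b4 : ℤ) : Decidable (Can b1 b2 b3 b4) := by unfold Can; infer_instance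
def wt (b1 b2 b3 b4 : ℤ) : ℤ := if Can b1 b2 b3 b4 then orb b1 b2 b3 b4 else 0

theorem wt_sum : ∀ b1 ∈ Icc (-2 : ℤ) 2, ∀ b2 ∈ Icc (-2 : ℤ) 2, ∀ b3 ∈ Icc (-2 : ℤ) 2, ∀ b4 ∈ Icc (-2 : ℤ) 2,
    wt b1 b2 b3 b4 + wt b3 b1 b4 b2 + wt b4 b3 b2 b1 + wt b2 b4 b1 b3 = 4 := by decide +kernel

theorem box15 : ∀ b1 ∈ Icc (-2 : ℤ) 2, ∀ b2 ∈ Icc (-2 : ℤ) 2, ∀ b3 ∈ Icc (-2 : ℤ) 2, ∀ b4 ∈ Icc (-2 : ℤ) 2,
    Can b1 b2 b3 b4 → orb b1 b2 b3 b4 * ((b1 - b4) ^ 2 + (b2 - b3) ^ 2) ≤ 16 →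
    ∀ b0 ∈ Icc (-2 : ℤ) 2, ∀ a ∈ Icc (-3 : ℤ) 3, 0 < -5 * a - 4 * (b0 + b1 + b2 + b3 + b4) →
    (Bud.sub ⟨15, -3, -16, 4, 4, 32, 16, 16⟩ (k15 a b0 b1 b2 b3 b4)).bad = false → k15 a b0 b1 b2 b3 b4 ∈ U15 := by
  decide +kernel

theorem sum_sym {ι : Type*} {M : Type*} [Field M] [CharZero M] (s : Finset ι) (σ : ι → ι) (hσ : ∀ i ∈ s, σ i ∈ s)
    (hi : Set.InjOn σ s) (W : ι → ℤ) (hW : ∀ i ∈ s, W i + W (σ i) + W (σ (σ i)) + W (σ (σ (σ i))) = 4)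
    (F : ι → M) (hF : ∀ i ∈ s, F (σ i) = F i) : ∑ i ∈ s, W i * F i = ∑ i ∈ s, F i := by
  have h1 : ∀ f : ι → M, ∑ i ∈ s, f (σ i) = ∑ i ∈ s, f i := fun f =>
    sum_nbij σ hσ hi (surjOn_of_injOn_of_card_le σ hσ hi le_rfl) fun _ _ => rfl
  have a1 := h1 fun i => W i * F i
  have a2 := h1 fun i => W (σ i) * F (σ i)
  have a3 := h1 fun i => W (σ (σ i)) * F (σ (σ i))
  have : ∑ i ∈ s, (4 : M) * F i = ∑ i ∈ s, (W i * F i + W (σ i) * F (σ i) + W (σ (σ i)) * F (σ (σ i)) +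
      W (σ (σ (σ i))) * F (σ (σ (σ i)))) := sum_congr rfl fun i hi => by
    rw [hF _ (hσ _ (hσ _ hi)), hF _ (hσ _ hi), hF _ hi, ← add_mul, ← add_mul, ← add_mul]
    congr 1; exact_mod_cast (hW i hi).symm
  simp only [sum_add_distrib, ← mul_sum] at this
  rw [a3, a2, a1] at this
  linear_combination (-1 / 4 : M) * this

theorem arith15' (elo ehi : ℤ) (C : List ℕ) (dom : Kd → Dm) (hck : (F15.all fun S => C.any fun n =>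
      (chk ⟨64, 1, -1, 0, 1, -1, 0, 0, 1, 4, 195, elo, ehi⟩ 100 (S.map (mkS dom)) n).isSome) = true)
    {ι : Type*} (s : Finset ι) (σ : ι → ι) (hσ : ∀ i ∈ s, σ i ∈ s) (hi : Set.InjOn σ s)
    (a : ι → ℤ) (b : Fin 5 → ι → ℤ) (t x : ι → ℤ)
    (hs : ∀ i ∈ s, a (σ i) = a i ∧ b 0 (σ i) = b 0 i ∧ b 1 (σ i) = b 3 i ∧ b 2 (σ i) = b 1 i ∧ b 3 (σ i) = b 4 i ∧
      b 4 (σ i) = b 2 i ∧ x (σ i) = x i)
    (ht : ∀ i, t i = -5 * a i - 4 * (b 0 i + b 1 i + b 2 i + b 3 i + b 4 i))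
    (hd : dom = dm1 ∨ dom = dm2 ∧ ∀ i ∈ s, x i + 3 * t i ≠ 0)
    (hx : ∀ i ∈ s, 0 < t i ∧ (x i + 3 * t i + 4 * a i) % 64 = 0 ∧
      ((1 < x i ∧ t i < x i ∧ 0 ≤ x i + 3 * t i - 60 * a i ∧ 0 ≤ x i + 3 * t i + 4 * a i) ∨
       (x i < -1 ∧ x i + 3 * t i - 60 * a i ≤ 0 ∧ x i + 3 * t i + 4 * a i ≤ 0)))
    (aa : ∑ i ∈ s, a i * a i = 15) (ab : ∀ j, ∑ i ∈ s, a i * b j i = if j = 0 then -3 else -4)
    (bb : ∀ j k, ∑ i ∈ s, b j i * b k i = if j = k then (if j = 0 then 4 else 5) else 1)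
    (la : ∑ i ∈ s, a i * x i = 1) (lb : ∀ j, ∑ i ∈ s, b j i * x i = if j = 0 then -1 else 0)
    (ε : ℚ) (hε : (elo : ℚ) < 195 * ε ∧ (ehi = 0 ∨ 195 * ε < ehi))
    (ca : ∑ i ∈ s, ((a i * t i * t i : ℤ) : ℚ) / x i = 1)
    (cb : ∀ j, ∑ i ∈ s, ((b j i * t i * t i : ℤ) : ℚ) / x i = (if j = 0 then -1 else 0) - ε) : False := by
  classical
  have bd : ∀ j, ∀ i ∈ s, b j i ∈ Icc (-2 : ℤ) 2 := fun j i hi =>
    mem_Icc.2 (abs_le_of 2 (sq_le_of_sum (bb j j) hi) (by split_ifs <;> first | contradiction | norm_num))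
  have hW : ∀ i ∈ s, wt (b 1 i) (b 2 i) (b 3 i) (b 4 i) + wt (b 1 (σ i)) (b 2 (σ i)) (b 3 (σ i)) (b 4 (σ i)) +
      wt (b 1 (σ (σ i))) (b 2 (σ (σ i))) (b 3 (σ (σ i))) (b 4 (σ (σ i))) +
      wt (b 1 (σ (σ (σ i)))) (b 2 (σ (σ (σ i)))) (b 3 (σ (σ (σ i)))) (b 4 (σ (σ (σ i)))) = 4 := fun i hi => by
    have h1 := hs i hi
    have h2 := hs _ (hσ i hi)
    have h3 := hs _ (hσ _ (hσ i hi))
    simp only [h1, h2, h3]
    exact wt_sum _ (bd 1 i hi) _ (bd 2 i hi) _ (bd 3 i hi) _ (bd 4 i hi)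
  have keyQ : ∀ F : ι → ℚ, (∀ i ∈ s, F (σ i) = F i) → ∑ i ∈ s with Can (b 1 i) (b 2 i) (b 3 i) (b 4 i),
      orb (b 1 i) (b 2 i) (b 3 i) (b 4 i) * F i = ∑ i ∈ s, F i := fun F hF => by
    rw [← sum_sym s σ hσ hi _ hW F hF, sum_filter]
    exact sum_congr rfl fun i _ => by unfold wt; split_ifs <;> simp
  have keyZ : ∀ F : ι → ℤ, (∀ i ∈ s, F (σ i) = F i) → ∑ i ∈ s with Can (b 1 i) (b 2 i) (b 3 i) (b 4 i),
      orb (b 1 i) (b 2 i) (b 3 i) (b 4 i) * F i = ∑ i ∈ s, F i := fun F hF => by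
    exact_mod_cast keyQ (fun i => F i) fun i hi => by rw [hF i hi]
  have g01 := bb 0 1; have g02 := bb 0 2; have g03 := bb 0 3; have g04 := bb 0 4
  have g11 := bb 1 1; have g12 := bb 1 2; have g13 := bb 1 3; have g14 := bb 1 4
  have g22 := bb 2 2; have g23 := bb 2 3; have g24 := bb 2 4
  have g33 := bb 3 3; have g34 := bb 3 4; have g44 := bb 4 4
  simp only [Fin.reduceEq, if_true, if_false] at g01 g02 g03 g04 g11 g12 g13 g14 g22 g23 g24 g33 g34 g44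
  have lin : ∀ (c : Fin 10 → ℤ) (f : ι → ℤ), (∀ i, f i = c 0 * (b 1 i * b 1 i) +
      c 1 * (b 1 i * b 2 i) + c 2 * (b 1 i * b 3 i) + c 3 * (b 1 i * b 4 i) + c 4 * (b 2 i * b 2 i) +
      c 5 * (b 2 i * b 3 i) + c 6 * (b 2 i * b 4 i) + c 7 * (b 3 i * b 3 i) + c 8 * (b 3 i * b 4 i) +
      c 9 * (b 4 i * b 4 i)) → ∑ i ∈ s, f i = 5 * (c 0 + c 4 + c 7 + c 9) +
      (c 1 + c 2 + c 3 + c 5 + c 6 + c 8) := fun c f h => by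
    simp only [h, sum_add_distrib, ← mul_sum, g11, g12, g13, g14, g22, g23, g24, g33, g34, g44]; ring
  have ho : ∀ b1 b2 b3 b4, 0 ≤ orb b1 b2 b3 b4 := fun _ _ _ _ => by unfold orb; split_ifs <;> norm_num
  have htσ : ∀ i ∈ s, t (σ i) = t i := fun i hi => by simp only [ht, hs i hi]; ring
  have hr : ∑ i ∈ s with Can (b 1 i) (b 2 i) (b 3 i) (b 4 i), orb (b 1 i) (b 2 i) (b 3 i) (b 4 i) *
      ((b 1 i - b 4 i) ^ 2 + (b 2 i - b 3 i) ^ 2) = 16 := by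
    rw [keyZ _ fun i hi => by simp only [hs i hi]; ring]
    refine (lin ![1, 0, 0, -2, 1, -2, 0, 1, 0, 1] _ fun i => ?_).trans (by simp)
    simp; ring
  refine arith (s.filter fun i => Can (b 1 i) (b 2 i) (b 3 i) (b 4 i))
    (fun i => k15 (a i) (b 0 i) (b 1 i) (b 2 i) (b 3 i) (b 4 i)) x _ _ _ _ _ _ (by norm_num) go15 hck
    (fun i hi => ⟨⟨ho _ _ _ _, mul_nonneg (ho _ _ _ _) (mul_self_nonneg _),
      mul_nonneg (ho _ _ _ _) (by positivity)⟩, fun hb => ?_⟩) ?_ ?_ ?_ ?_ ?_ ?_ ?_ hr ?_ ?_ ?_ ε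
      ⟨by norm_num, by simpa using hε⟩ ?_ ?_ ?_
  · obtain ⟨hi', hc⟩ := mem_filter.1 hi
    obtain ⟨a1, a2, a4⟩ := hx i hi'
    refine ⟨box15 _ (bd 1 i hi') _ (bd 2 i hi') _ (bd 3 i hi') _ (bd 4 i hi') hc ?_ _ (bd 0 i hi') _
      (mem_Icc.2 (abs_le_of 3 (sq_le_of_sum aa hi') (by norm_num))) (ht i ▸ a1) hb, ?_, ?_⟩
    · exact hr ▸ single_le_sum (f := fun i => orb (b 1 i) (b 2 i) (b 3 i) (b 4 i) *
        ((b 1 i - b 4 i) ^ 2 + (b 2 i - b 3 i) ^ 2)) (fun _ _ => mul_nonneg (ho _ _ _ _) (by positivity)) hi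
    · rcases hd with rfl | ⟨rfl, hd⟩
      · simp only [k15, k15', ← ht, dm1, Dm.mem]; omega
      · have := hd i hi'
        have := ht i
        simp only [k15, k15', ← ht, dm2, Dm.mem]; split_ifs <;> omega
    · simp only [k15, k15', ← ht]; omega
  all_goals simp only [k15, k15', ← ht, mul_assoc, Int.cast_mul, mul_div_assoc (orb _ _ _ _ : ℚ)]
  · rw [keyZ _ fun i hi => by simp only [hs i hi]]; exact aa
  · rw [keyZ _ fun i hi => by simp only [hs i hi]]; exact ab 0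
  · rw [keyZ _ fun i hi => by simp only [hs i hi]; ring]
    simp only [mul_add, sum_add_distrib, ab]; rfl
  · rw [keyZ _ fun i hi => by simp only [hs i hi]]; exact bb 0 0
  · rw [keyZ _ fun i hi => by simp only [hs i hi]; ring]
    simp only [mul_add, sum_add_distrib, g01, g02, g03, g04]; rfl
  · rw [keyZ _ fun i hi => by simp only [hs i hi]; ring]
    refine (lin ![1, 2, 2, 2, 1, 2, 2, 1, 2, 1] _ fun i => ?_).trans (by simp)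
    simp; ring
  · rw [keyZ _ fun i hi => by simp only [hs i hi]; ring]
    refine (lin ![1, -2, -2, 2, 1, 2, -2, 1, -2, 1] _ fun i => ?_).trans (by simp)
    simp; ring
  · rw [keyZ _ fun i hi => by simp only [hs i hi]]; exact la
  · rw [keyZ _ fun i hi => by simp only [hs i hi]]; exact lb 0
  · rw [keyZ _ fun i hi => by simp only [hs i hi]; ring]
    simp only [add_mul, sum_add_distrib, lb]; rfl
  · rw [keyQ _ fun i hi => by simp only [hs i hi, htσ i hi]]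
    simpa [mul_assoc] using ca
  · rw [keyQ _ fun i hi => by simp only [hs i hi, htσ i hi]]
    simpa [mul_assoc] using cb 0
  · rw [keyQ _ fun i hi => by simp only [hs i hi, htσ i hi]; push_cast; ring]
    simp only [Int.cast_mul, mul_assoc] at cb
    simp only [Int.cast_add, add_mul, add_div, sum_add_distrib, cb]
    simp; ring

theorem arith15a (elo ehi : ℤ) (C : List ℕ) (dom : Kd → Dm) (hck : (F15.all fun S => C.any fun n =>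
      (chk ⟨64, 1, -1, 0, 1, -1, 0, 0, 1, 4, 195, elo, ehi⟩ 100 (S.map (mkS dom)) n).isSome) = true)
    {ι : Type*} (s : Finset ι) (i0 : ι) (h0 : i0 ∈ s) (σ : ι → ι) (hσ : ∀ i ∈ s, σ i ∈ s)
    (hi : Set.InjOn σ s) (hσ0 : σ i0 = i0) (a : ι → ℤ) (b : Fin 5 → ι → ℤ) (t x : ι → ℤ)
    (e0 : a i0 = -1 ∧ (∀ j, b j i0 = if j = 0 then 1 else 0) ∧ x i0 = 1)
    (hs : ∀ i ∈ s, a (σ i) = a i ∧ b 0 (σ i) = b 0 i ∧ b 1 (σ i) = b 3 i ∧ b 2 (σ i) = b 1 i ∧ b 3 (σ i) = b 4 i ∧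
      b 4 (σ i) = b 2 i ∧ x (σ i) = x i)
    (ht : ∀ i, t i = -5 * a i - 4 * (b 0 i + b 1 i + b 2 i + b 3 i + b 4 i))
    (hd : dom = dm1 ∨ dom = dm2 ∧ ∀ i ∈ s, x i + 3 * t i ≠ 0)
    (hx : ∀ i ∈ s, i ≠ i0 → t i ≠ 0 ∧ (x i + 3 * t i + 4 * a i) % 64 = 0 ∧
      1 < x i ∧ t i < x i ∧ 0 ≤ x i + 3 * t i - 60 * a i ∧ 0 ≤ x i + 3 * t i + 4 * a i)
    (aa : ∑ i ∈ s, a i * a i = 16) (ab : ∀ j, ∑ i ∈ s, a i * b j i = -4)
    (bb : ∀ j k, ∑ i ∈ s, b j i * b k i = if j = k then 5 else 1)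
    (la : ∑ i ∈ s, a i * x i = 0) (lb : ∀ j, ∑ i ∈ s, b j i * x i = 0)
    (ε : ℚ) (hε : (elo : ℚ) < 195 * ε ∧ (ehi = 0 ∨ 195 * ε < ehi)) (ca : ∑ i ∈ s, ((a i * t i * t i : ℤ) : ℚ) / x i = 0)
    (cb : ∀ j, ∑ i ∈ s, ((b j i * t i * t i : ℤ) : ℚ) / x i = -ε) : False := by
  classical
  obtain ⟨e1, e2, e3⟩ := e0
  have e4 : t i0 = 1 := by simp [ht, e1, e2]
  have htσ : ∀ i ∈ s, t (σ i) = t i := fun i hi => by simp only [ht, hs i hi]; ring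
  obtain ⟨sg, hg, hg'⟩ : ∃ sg : ι → ℤ, (∀ i, (sg i = 1 ∨ sg i = -1) ∧ 0 ≤ sg i * t i) ∧ ∀ i ∈ s, sg (σ i) = sg i :=
    ⟨fun i => if 0 ≤ t i then 1 else -1, fun i => by beta_reduce; split_ifs <;> omega, fun i hi => by simp only [htσ i hi]⟩
  have k1 : ∀ f g : ι → ℤ, ∑ i ∈ s.erase i0, sg i * f i * (sg i * g i) = ∑ i ∈ s.erase i0, f i * g i := fun f g =>
    sum_congr rfl fun i _ => by rcases (hg i).1 with h | h <;> rw [h] <;> ring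
  have k2 : ∀ f : ι → ℤ, ∑ i ∈ s.erase i0, ((sg i * f i * (sg i * t i) * (sg i * t i) : ℤ) : ℚ) / (sg i * x i : ℤ) =
      ∑ i ∈ s.erase i0, ((f i * t i * t i : ℤ) : ℚ) / x i := fun f => sum_congr rfl fun i _ => by
    rcases (hg i).1 with h | h <;> rw [h] <;> push_cast
    · simp
    · rw [neg_one_mul (x i : ℚ), div_neg, ← neg_div]; congr 1; ring
  refine arith15' elo ehi C dom hck (s.erase i0) σ (fun i h => ?_) (hi.mono (by simp)) (fun i => sg i * a i) (fun j i => sg i * b j i)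
    (fun i => sg i * t i) (fun i => sg i * x i) (fun i h => ?_) (fun i => ?_) ?_ (fun i h => ?_) ?_ (fun j => ?_)
    (fun j k => ?_) ?_ (fun j => ?_) ε hε ?_ (fun j => ?_)
  · obtain ⟨h1, h⟩ := mem_erase.1 h
    exact mem_erase.2 ⟨fun e => h1 (hi h h0 (e.trans hσ0.symm)), hσ i h⟩
  · simp only [hs i (mem_of_mem_erase h), hg' i (mem_of_mem_erase h), and_self]
  · rw [ht]; ring
  · refine hd.imp_right fun hd => ⟨hd.1, fun i h => ?_⟩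
    have := hd.2 i (mem_of_mem_erase h)
    rcases (hg i).1 with h | h <;> rw [h] <;> omega
  · obtain ⟨h1, h⟩ := mem_erase.1 h
    have := hx i h h1
    have h2 := (hg i).2
    rcases (hg i).1 with h | h <;> rw [h] at h2 ⊢ <;> omega
  · rw [k1]; exact sum_erase_of h0 aa (by simp [*])
  · rw [k1]; exact sum_erase_of h0 (ab j) (by rw [e1, e2]; split_ifs <;> rfl)
  · rw [k1]; exact sum_erase_of h0 (bb j k) (by rw [e2, e2]; split_ifs <;> simp_all)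
  · rw [k1]; exact sum_erase_of h0 la (by simp [*])
  · rw [k1]; exact sum_erase_of h0 (lb j) (by rw [e2, e3]; split_ifs <;> rfl)
  · rw [k2]; exact sum_erase_of h0 ca (by simp [*])
  · rw [k2]; exact sum_erase_of h0 (cb j) (by rw [e2, e3, e4]; split_ifs <;> push_cast <;> ring)

theorem arith15 {ι : Type*} (s : Finset ι) (i0 : ι) (h0 : i0 ∈ s) (σ : ι → ι) (hσ : ∀ i ∈ s, σ i ∈ s)
    (hi : Set.InjOn σ s) (hσ0 : σ i0 = i0) (a : ι → ℤ) (b : Fin 5 → ι → ℤ) (t x : ι → ℤ)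
    (e0 : a i0 = -1 ∧ (∀ j, b j i0 = if j = 0 then 1 else 0) ∧ x i0 = 1)
    (hs : ∀ i ∈ s, a (σ i) = a i ∧ b 0 (σ i) = b 0 i ∧ b 1 (σ i) = b 3 i ∧ b 2 (σ i) = b 1 i ∧ b 3 (σ i) = b 4 i ∧
      b 4 (σ i) = b 2 i ∧ x (σ i) = x i)
    (ht : ∀ i, t i = -5 * a i - 4 * (b 0 i + b 1 i + b 2 i + b 3 i + b 4 i))
    (hx : ∀ i ∈ s, i ≠ i0 → t i ≠ 0 ∧ (x i + 3 * t i + 4 * a i) % 64 = 0 ∧
      1 < x i ∧ t i < x i ∧ 0 ≤ x i + 3 * t i - 60 * a i ∧ 0 ≤ x i + 3 * t i + 4 * a i)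
    (aa : ∑ i ∈ s, a i * a i = 16) (ab : ∀ j, ∑ i ∈ s, a i * b j i = -4)
    (bb : ∀ j k, ∑ i ∈ s, b j i * b k i = if j = k then 5 else 1)
    (la : ∑ i ∈ s, a i * x i = 0) (lb : ∀ j, ∑ i ∈ s, b j i * x i = 0)
    (ε : ℚ) (hε : 0 < ε) (ca : ∑ i ∈ s, ((a i * t i * t i : ℤ) : ℚ) / x i = 0)
    (cb : ∀ j, ∑ i ∈ s, ((b j i * t i * t i : ℤ) : ℚ) / x i = -ε) :
    ε = 32 / 195 ∧ ∃ i ∈ s, x i + 3 * t i = 0 := by
  have e : ε = 32 / 195 := by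
    rcases lt_trichotomy ε (32 / 195) with h | h | h
    · exact (arith15a _ _ _ _ ck15a s i0 h0 σ hσ hi hσ0 a b t x e0 hs ht (.inl rfl) hx aa ab bb la lb ε
        ⟨by push_cast; linarith, .inr (by push_cast; linarith)⟩ ca cb).elim
    · exact h
    · exact (arith15a _ _ _ _ ck15b s i0 h0 σ hσ hi hσ0 a b t x e0 hs ht (.inl rfl) hx aa ab bb la lb ε
        ⟨by push_cast; linarith, .inl rfl⟩ ca cb).elim
  refine ⟨e, by_contra fun h => ?_⟩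
  push Not at h
  exact arith15a _ _ _ _ ck15c s i0 h0 σ hσ hi hσ0 a b t x e0 hs ht (.inr ⟨rfl, h⟩) hx aa ab bb la lb ε
    ⟨by push_cast; linarith, .inr (by push_cast; linarith)⟩ ca cb

end CA.Ly
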