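/-
Lyons' theorem: the automizer of the Sylow 2-subgroup does not have order 3.
-/
import Cfsg.Agent.Lib.Ly.Ch
import Cfsg.Agent.Lib.Ly.Ar3

set_option autoImplicit false
set_option linter.unusedSectionVars false

namespace CA.Ly

open Cfsg Subgroup CA CA.Ch CA.Blk Finset
open scoped ComplexConjugate

variable {G : Type*} [Group G] [Finite G]

/-- representatives of the five classes of elements of order four -/
def yy (j : Fin 5) : T0 := el (![1, 2, 4, 8, 3] j)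
def cl3 (x : T0) : Fin 7 :=
  if x = 1 then 0 else if x * x = 1 then 1 else ![0, 2, 3, 6, 4, 5, 2, 2, 5, 6, 6, 4, 3, 5, 3, 4] ⟨x.c % 16, by omega⟩
def ww (j : Fin 5) : ℕ := ![8, 1, 3, 2, 4] j

theorem coset_conj : ∀ x : T0, x * x ≠ 1 → ∀ z, z * z = 1 → ∃ c, c * x * c⁻¹ = x * z := by decide +kernel
theorem sq_δ : ∀ x z : T0, z * z = 1 → δ^[5] x * z * (δ^[5] x * z) = δ^[5] (x * x) := by decide +kernel
theorem sq_δ' : ∀ x : T0, x * x ≠ 1 → δ^[5] x * δ^[5] x ≠ 1 := by decide +kernel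
theorem cl3_spec : ∀ x : T0, x * x ≠ 1 → ∃ j : Fin 5, cl3 x = j.succ.succ ∧ ∃ z, z * z = 1 ∧
    (x = yy j * z ∨ x = δ^[5] (yy j) * z ∨ x = δ^[5] (δ^[5] (yy j)) * z) := by decide +kernel
theorem yy_sep : ∀ j k : Fin 5, ∀ i < 3, ∀ z, z * z = 1 → yy k = δ^[5 * i] (yy j) * z → j = k := by decide +kernel
theorem yy_sq : ∀ j, yy j * yy j ≠ 1 := by decide +kernel
theorem cl3_sum0 : ∀ i, ∑ x with cl3 x = i, muZ 0 x = ![1, 3, 12, 12, 12, 12, 12] i := by decide +kernel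
theorem cl3_sum : ∀ j : Fin 5, ∀ i, ∑ x with cl3 x = i, muZ (ww j) x =
    if i = 0 then 1 else if i = 1 then 3 else if i = j.succ.succ then 12 else -4 := by decide +kernel
theorem cl3_A : ∀ y, y * y0 = y0 * y → y * y ≠ 1 → cl3 y = 2 := by decide +kernel

theorem conj_coset (ι : T0 →* G) {x z : T0} (hx : x * x ≠ 1) (hz : z * z = 1) : IsConj (ι x) (ι (x * z)) := by
  obtain ⟨c, hc⟩ := coset_conj x hx z hz
  exact isConj_iff.2 ⟨ι c, by rw [← hc]; simp⟩

namespace S3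
variable {ι : T0 →* G} {d : G} (h : S3 ι d)
include h

theorem conj5 {x : T0} (hx : x * x ≠ 1) : IsConj (ι x) (ι (δ^[5] x)) := by
  obtain ⟨z, hz, e⟩ := h.hd x
  exact (isConj_iff.2 ⟨d, e⟩).trans (conj_coset ι (sq_δ' x hx) hz).symm

theorem conj5' (x : T0) : IsConj (ι (x * x)) (ι (δ^[5] (x * x))) := by
  obtain ⟨z, hz, e⟩ := h.hd x
  exact isConj_iff.2 ⟨d, by rw [← sq_δ x z hz, map_mul ι (_ * z), ← e, conj_mul, map_mul]⟩

theorem conj_z {z : T0} (hz : z * z = 1) (h1 : z ≠ 1) : IsConj (ι z0) (ι z) := by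
  have a : IsConj (ι z0) (ι z2) := by
    have := h.conj5' y0
    rwa [y0_sq, show δ^[5] z0 = z2 by decide +kernel] at this
  have b : IsConj (ι z2) (ι z1) := by
    have := h.conj5' (el 4)
    rwa [show el 4 * el 4 = z2 by decide +kernel, show δ^[5] z2 = z1 by decide +kernel] at this
  rcases (sq_eq_one_iff z).1 hz with rfl | rfl | rfl | rfl
  exacts [absurd rfl h1, .refl _, a.trans b, a]

theorem vals {χ : G → ℂ} (hχ : IsCF χ) (x : T0) : χ (ι x) =
    ![χ 1, χ (ι z0), χ (ι (yy 0)), χ (ι (yy 1)), χ (ι (yy 2)), χ (ι (yy 3)), χ (ι (yy 4))] (cl3 x) := by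
  by_cases h1 : x * x = 1
  · by_cases h0 : x = 1
    · simp [cl3, h0]
    · simp [cl3, h0, h1, hχ.of_isConj (h.conj_z h1 h0)]
  · obtain ⟨j, e, z, hz, hx⟩ := cl3_spec x h1
    have a1 := yy_sq j
    have a2 := sq_δ' _ a1
    have a3 := sq_δ' _ a2
    have : IsConj (ι (yy j)) (ι x) := by
      rcases hx with rfl | rfl | rfl
      · exact conj_coset ι a1 hz
      · exact (h.conj5 a1).trans (conj_coset ι a2 hz)
      · exact (h.conj5 a1).trans ((h.conj5 a2).trans (conj_coset ι a3 hz))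
    rw [e, ← hχ.of_isConj this]
    fin_cases j <;> rfl

theorem ints {χ : G → ℂ} (hχ : IsChar χ) : ∃ (x τ : ℤ) (g : Fin 5 → ℤ), χ 1 = x ∧ χ (ι z0) = τ ∧
    (∀ j, χ (ι (yy j)) = (g 0 + g 1 + g 2 + g 3 + g 4 - 4 * g j : ℤ)) ∧ (τ - (g 0 + g 1 + g 2 + g 3 + g 4)) % 4 = 0 ∧
    (x - τ) % 16 = 0 := by
  obtain ⟨x, hx⟩ := hχ.nat
  obtain ⟨N, hN⟩ := res_A hχ ι (τ := χ (ι z0)) (c := χ (ι (yy 0)))
    (fun z hz h1 => (hχ.isCF.of_isConj (h.conj_z hz h1)).symm) fun y h1 h2 => by rw [h.vals hχ.isCF, cl3_A y h1 h2]; rfl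
  obtain ⟨m, hm⟩ := res_mu hχ ι cl3 _ (h.vals hχ.isCF) (w := 0) (by norm_num)
  choose n hn using fun j => res_mu hχ ι cl3 _ (h.vals hχ.isCF) (w := ww j) (by revert j; decide)
  have n0 := hn 0; have n1 := hn 1; have n2 := hn 2; have n3 := hn 3; have n4 := hn 4
  simp only [cl3_sum0, cl3_sum] at hm n0 n1 n2 n3 n4
  simp [Fin.sum_univ_succ] at hm n0 n1 n2 n3 n4
  have e : ((x - 16 * N : ℤ) : ℂ) + 4 * N + 3 * (5 * m - n 0 - n 1 - n 2 - n 3 - n 4) = 16 * m := by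
    push_cast
    linear_combination -hx + (3 / 4 : ℂ) * hN + (1 / 64 : ℂ) * hm + (3 / 64 : ℂ) * (n0 + n1 + n2 + n3 + n4)
  have e : x - 16 * N + 4 * N + 3 * (5 * m - n 0 - n 1 - n 2 - n 3 - n 4) = (16 * m : ℤ) := by exact_mod_cast e
  refine ⟨x, x - 16 * N, fun j => m - n j, by exact_mod_cast hx, by push_cast; linear_combination hx - hN,
    fun j => ?_, by beta_reduce; omega, by omega⟩
  have nj := hn j
  simp only [cl3_sum] at nj
  push_cast
  fin_cases j <;> simp [Fin.sum_univ_succ] at nj ⊢ <;>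
    linear_combination (1 / 64 : ℂ) * hm - (1 / 64 : ℂ) * (n0 + n1 + n2 + n3 + n4) + (1 / 16 : ℂ) * nj

theorem false [IsSimpleGroup G] : False := by
  classical
  haveI := Fintype.ofFinite G
  choose! x τ g hx hτ hg h4 h16 using fun (χ : G → ℂ) (hχ : χ ∈ B0 G 2) => h.ints (irr_of_B0 hχ).isChar
  have one := one_mem_B0 G 2
  have hg' : ∀ χ ∈ B0 G 2, ∀ j, (g χ j : ℂ) = (∑ k, χ (ι (yy k)) - χ (ι (yy j))) / 4 := fun χ hχ j => by
    simp only [Fin.sum_univ_five, hg χ hχ]; push_cast; ring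
  have cy : ∀ χ ∈ B0 G 2, ∀ j, conj (χ (ι (yy j))) = χ (ι (yy j)) := fun χ hχ j => by rw [hg χ hχ, map_intCast]
  have cg : ∀ (s : G) (j : Fin 5), ∑ χ ∈ B0 G 2, χ s * g χ j = (∑ k, KK s (ι (yy k)) - KK s (ι (yy j))) / 4 :=
    fun s j => by
      unfold KK
      rw [sum_comm, ← sum_sub_distrib, sum_div]
      exact sum_congr rfl fun χ hχ => by simp only [hg' χ hχ, cy χ hχ, ← mul_sum]; ring
  have kyy : ∀ j k, KK (ι (yy j)) (ι (yy k)) = if j = k then 16 else 0 := fun j k => by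
    split_ifs with e
    · rw [e, h.KK_y (yy_sq k)]
    · refine KK_zero fun c => e ?_
      rw [Su.cst, Su.cst] at c
      obtain ⟨c, hc⟩ := isConj_iff.1 c
      obtain ⟨i, hi, z, hz, e⟩ := h.fus _ _ _ hc
      exact yy_sep j k i hi z hz e
  have z0sq : z0 * z0 = 1 := by decide +kernel
  refine arith3 (B0 G 2) 1 one (fun j χ => g χ j) τ x ⟨fun j => ?_, ?_, ?_⟩ (fun χ hχ => ?_) (fun j k => ?_)
    (fun j => ?_) ?_ (fun j => ?_) (fun j => ?_) ?_
  · have := hg' 1 one j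
    simp only [Pi.one_apply, sum_const, card_univ, Fintype.card_fin] at this
    norm_num at this
    exact_mod_cast this
  · exact_mod_cast (show (τ 1 : ℂ) = 1 from (hτ 1 one).symm)
  · exact_mod_cast (show (x 1 : ℂ) = 1 from (hx 1 one).symm)
  · obtain ⟨a1, -, a2⟩ := int_bounds (irr_of_B0 hχ) (hx χ hχ) (hτ χ hχ)
    refine ⟨a1, fun e => h.tau_ne hχ (by rw [hτ χ hχ, e, Int.cast_zero]), h4 χ hχ, h16 χ hχ,
      fun h1 => lt_of_le_of_ne a2 fun e => z_ne.1 (h.inj ?_)⟩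
    rw [map_one]
    exact eq_one_of_apply (irr_of_B0 hχ) h1 (by rw [hτ χ hχ, hx χ hχ, e])
  · have : ∑ χ ∈ B0 G 2, (g χ j : ℂ) * g χ k =
        (∑ l, ∑ χ ∈ B0 G 2, χ (ι (yy l)) * g χ k - ∑ χ ∈ B0 G 2, χ (ι (yy j)) * g χ k) / 4 := by
      rw [sum_comm, ← sum_sub_distrib, sum_div]
      exact sum_congr rfl fun χ hχ => by rw [hg' χ hχ j, ← sum_mul]; ring
    simp only [cg, kyy, sum_ite_eq, mem_univ, if_true, ← sum_div, sum_sub_distrib, sum_ite_eq', sum_const, card_univ,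
      Fintype.card_fin] at this
    have : ∑ χ ∈ B0 G 2, (g χ j : ℂ) * g χ k = (if j = k then 4 else 3 : ℤ) := by
      rw [this]; split_ifs <;> norm_num
    exact_mod_cast this
  · have := cg (ι z0) j
    simp only [h.KK_zy z0sq (yy_sq _) (Su.cst _), sum_const_zero, sub_zero, zero_div] at this
    rw [sum_congr rfl fun χ hχ => by rw [hτ χ hχ, mul_comm]] at this
    exact_mod_cast this
  · have := sum_B0_self ((piElt_T0 z0).map ι) h.cz.1
    rw [h.cz.2, sum_congr rfl fun χ hχ => by rw [hτ χ hχ, map_intCast]] at this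
    exact_mod_cast this
  · have := cg 1 j
    have k0 : ∀ k, KK 1 (ι (yy k)) = 0 := fun k => h.KK_zy (z := 1) (mul_one 1) (yy_sq k) (by simp)
    simp only [k0, sum_const_zero, sub_zero, zero_div] at this
    rw [sum_congr rfl fun χ hχ => by rw [hx χ hχ, mul_comm]] at this
    exact_mod_cast this
  · have k0 := fun k => h.cls_y (t := ι z0) (by rw [← map_mul, z0sq, map_one]) (yy_sq k)
    have : ∑ χ ∈ B0 G 2, ((g χ j * τ χ * τ χ : ℤ) : ℂ) / x χ = (∑ k, ∑ χ ∈ B0 G 2, χ (ι z0) * χ (ι z0) / χ 1 *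
        conj (χ (ι (yy k))) - ∑ χ ∈ B0 G 2, χ (ι z0) * χ (ι z0) / χ 1 * conj (χ (ι (yy j)))) / 4 := by
      rw [sum_comm, ← sum_sub_distrib, sum_div]
      exact sum_congr rfl fun χ hχ => by
        push_cast; simp only [hg' χ hχ, cy χ hχ, ← mul_sum, hτ χ hχ, hx χ hχ]; ring
    simp only [k0, sum_const_zero, sub_zero, zero_div] at this
    exact Rat.cast_injective (α := ℂ) (by push_cast at this ⊢; exact this)
  · have := h.KK_one z_ne.1 (Su.cst z0)
    rw [KK, sum_congr rfl fun χ hχ => by rw [hτ χ hχ, hx χ hχ, map_intCast]] at this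
    exact_mod_cast this

end S3
end CA.Ly
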