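/-
Lyons' theorem: the model `H0 = T0 : 5` of `C(t) / O(C(t))` and its principal block.
-/
import Cfsg.Agent.Lib.Ly.Ch

set_option autoImplicit false
set_option linter.unusedSectionVars false

namespace CA.Ly

open Cfsg Subgroup CA CA.Ch CA.Blk Finset
open scoped ComplexConjugate

def ac (a : Fin 5) (x : T0) : T0 := δ^[3 * a.val] x
theorem ac_mul (a : Fin 5) (x y : T0) : ac a (x * y) = ac a x * ac a y := iterate_map_mul δ _ x y
theorem ac_ac : ∀ a b x, ac a (ac b x) = ac (a + b) x := by decide +kernel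

/-- the group `T0 : 5` -/
def H0 : Type := T0 × Fin 5
instance instDecEqH0 : DecidableEq H0 := inferInstanceAs (DecidableEq (T0 × Fin 5))
instance instFintypeH0 : Fintype H0 := inferInstanceAs (Fintype (T0 × Fin 5))
def mkH (x : T0) (a : Fin 5) : H0 := (x, a)
instance instDecAllH0 (p : H0 → Prop) [h : DecidablePred p] : Decidable (∀ g, p g) :=
  decidable_of_iff (∀ x a, p (mkH x a)) ⟨fun h g => h g.1 g.2, fun h _ _ => h _⟩

instance instGroupH0 : Group H0 where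
  mul g k := mkH (g.1 * ac g.2 k.1) (g.2 + k.2)
  one := mkH 1 0
  inv g := mkH (ac (-g.2) g.1⁻¹) (-g.2)
  mul_assoc a b c := Prod.ext (by
    change a.1 * ac a.2 b.1 * ac (a.2 + b.2) c.1 = a.1 * ac a.2 (b.1 * ac b.2 c.1)
    rw [ac_mul, ac_ac, mul_assoc]) (add_assoc _ _ _)
  one_mul := by decide +kernel
  mul_one := by decide +kernel
  inv_mul_cancel := by decide +kernel

theorem card_H0 : Nat.card H0 = 320 := by
  change Nat.card (T0 × Fin 5) = _
  rw [Nat.card_prod, card_T0]; simp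
theorem mkH_mul (x y : T0) (a b : Fin 5) : mkH x a * mkH y b = mkH (x * ac a y) (a + b) := rfl
theorem H0_pow : ∀ g : H0, g ^ 5 * g ^ 5 * (g ^ 5 * g ^ 5) = 1 := by decide +kernel
theorem H0_five : ∀ g : H0, g ^ 5 = 1 → ∃ c, mkH c 0 * mkH 1 g.2 * (mkH c 0)⁻¹ = g := by decide +kernel
theorem H0_cnt : ∀ a, (univ.filter fun g : H0 => g ^ 5 = 1 ∧ g.2 = a).card = if a = 0 then 1 else 16 := by
  decide +kernel
theorem H0_cent : ∀ a, (univ.filter fun g : H0 => g * mkH z0 a = mkH z0 a * g).card = if a = 0 then 320 else 20 := by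
  decide +kernel
theorem H0_inv : ∀ g : H0, g * g = 1 → g.1 * g.1 = 1 ∧ g = mkH g.1 0 := by decide +kernel
theorem H0_inv2 : ∀ x y : T0, x * x = 1 → y * y = 1 → mkH x 0 * mkH y 0 * (mkH x 0 * mkH y 0) = 1 := by decide +kernel
theorem H0_cen : ∀ g : H0, (∀ y, (g * mkH y 0 * g⁻¹ * (mkH y 0)⁻¹) ^ 5 = 1) → g ^ 5 = 1 → g = 1 := by decide +kernel
theorem H0_φ : ∀ a : Fin 5, mkH 1 1 ^ a.val = mkH 1 a := by decide +kernel
theorem H0_zφ : ∀ a : Fin 5, mkH z0 0 * mkH 1 a = mkH z0 a := by decide +kernel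
theorem H0_z : ∀ g, mkH z0 0 * g = g * mkH z0 0 := by decide +kernel
theorem ac_inj : ∀ x a, x * ac a y0 * x⁻¹ * y0⁻¹ = 1 → a = 0 := by decide +kernel

theorem H0_odd {g : H0} : PiElt {2}ᶜ g ↔ g ^ 5 = 1 :=
  ⟨fun h => (piElt_of_pow_eq_one (piNum_singleton_pow Nat.prime_two 2) (by
      rw [← H0_pow g]; simp [pow_succ, mul_assoc])).eq_one (h.pow 5),
    piElt_of_pow_eq_one ((piNum_compl_singleton Nat.prime_two).2 (by norm_num))⟩

theorem H0_isConj {a b : Fin 5} (h : IsConj (mkH z0 a) (mkH z0 b)) : a = b := by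
  obtain ⟨c, hc⟩ := isConj_iff.1 h
  have : c.2 + a + -c.2 = b := congrArg Prod.snd hc
  rw [← this]; abel

theorem H0_block {ψ : H0 → ℂ} (h : IsIrr ψ) : ⟪ψ, regI H0 2⟫ ≠ 0 := fun h0 => by
  obtain ⟨n, hn, e⟩ := h.nat
  obtain ⟨k, hk⟩ := int2 h.isVC (n := 4) (m := 0) (a := mkH 1 1) (b := 1) (by decide +kernel) (one_pow _)
    (Commute.one_right _) (u := 1) (v := 1) (one_pow _) (one_pow _)
  rw [ip_def, mul_eq_zero, inv_eq_zero, or_iff_right (Ch.card_ne_zero' _)] at h0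
  have e1 : ∑ g, ψ g * conj (regI H0 2 g) = ∑ a, ∑ g : H0 with g ^ 5 = 1 ∧ g.2 = a, ψ (mkH 1 a) := by
    simp only [sum_filter]
    rw [sum_comm]
    refine sum_congr rfl fun g _ => ?_
    by_cases h5 : g ^ 5 = 1
    · obtain ⟨c, hc⟩ := H0_five g h5
      rw [regI_of (H0_odd.2 h5), ← hc, h.isCF.conj, hc]
      simp [h5]
    · rw [regI_of_not (mt H0_odd.1 h5)]; simp [h5]
  simp only [e1, sum_const, H0_cnt] at h0
  simp only [H0_φ] at hk
  have e' : ψ (mkH 1 0) = n := e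
  simp [Fin.sum_univ_succ, e'] at h0 hk
  have : (16 * (5 * k) : ℂ) = 15 * n := by linear_combination h0 - 16 * hk
  have : (16 * (5 * k) : ℤ) = 15 * n := by exact_mod_cast this
  have h1 := h.sq_le_index (zpowers (mkH z0 0)) (fun d hd g => by
    obtain ⟨j, rfl⟩ := mem_zpowers_iff.1 hd
    rw [((show Commute (mkH z0 0) g from H0_z g).zpow_left j).eq]; simp) e
  have h2 := (zpowers (mkH z0 0)).card_mul_index
  rw [Nat.card_zpowers, Inv.orderOf_eq_two (by decide +kernel) (by decide +kernel), card_H0] at h2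
  have : 16 ≤ n := by omega
  nlinarith

theorem H0_col (a b : Fin 5) : ∑ ψ ∈ irr H0, ψ (mkH z0 a) * conj (ψ (mkH z0 b)) =
    if a = b then (if a = 0 then 320 else 20) else 0 := by
  classical
  have := col_apply (mkH z0 b) (mkH z0 a)
  rw [Finset.sum_apply] at this
  refine (sum_congr rfl fun ψ _ => by simp [mul_comm]).trans (this.trans ?_)
  by_cases e : a = b
  · subst e
    have := H0_cent a
    rw [if_pos (IsConj.refl _), if_pos rfl, Nat.card_eq_fintype_card, Fintype.card_subtype]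
    simp only [mem_centralizer_singleton_iff]
    convert congrArg (Nat.cast : ℕ → ℂ) this
    split_ifs <;> simp
  · rw [if_neg fun c => e (H0_isConj c), if_neg e]

variable {G : Type*} [Group G] [Finite G]

namespace S15
variable {ι : T0 →* G} {d : G} (h : S15 ι d)
include h

theorem conj_pow (n : ℕ) (x : T0) : d ^ n * ι x * (d ^ n)⁻¹ = ι (δ^[n] x) := by
  induction n with
  | zero => simp
  | succ n ih => rw [Function.iterate_succ_apply', ← h.hd, ← ih]; group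

omit h in
theorem mem1 (x : T0) : ι x ∈ 𝐂[ι z0] := by
  rw [mem_centralizer_singleton_iff, ← map_mul, ← map_mul, cen_of_sq z0 (by decide +kernel)]

theorem mem2 (a : ℕ) : d ^ (3 * a) ∈ 𝐂[ι z0] := by
  rw [pow_mul]
  refine pow_mem ?_ a
  rw [mem_centralizer_singleton_iff, ← mul_inv_eq_iff_eq_mul, h.conj_pow]
  exact congrArg ι (by decide +kernel)

theorem eq_one {x : T0} (hx : ι x ∈ piCoreOf {2}ᶜ 𝐂[ι z0]) : x = 1 :=
  h.inj ((((piElt_T0 x).map ι).eq_one ((piCoreOf_piGrp _ _).piElt hx)).trans (map_one ι).symm)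

theorem exists_pi : ∃ π : 𝐂[ι z0] →* H0, Function.Surjective π ∧ (∀ g, π g = 1 ↔ (g : G) ∈ piCoreOf {2}ᶜ 𝐂[ι z0]) ∧
    ∀ (g : 𝐂[ι z0]) x (a : Fin 5), (g : G) = ι x * d ^ (3 * a.val) → π g = mkH x a := by
  haveI : ((piCoreOf {2}ᶜ 𝐂[ι z0]).subgroupOf 𝐂[ι z0]).Normal :=
    (normal_subgroupOf_iff_le_normalizer (piCoreOf_le _ _)).mpr (piCoreOf_norm _ _)
  let j : H0 →* 𝐂[ι z0] ⧸ (piCoreOf {2}ᶜ 𝐂[ι z0]).subgroupOf 𝐂[ι z0] := MonoidHom.mk'
    (fun g => QuotientGroup.mk ⟨ι g.1 * d ^ (3 * g.2.val), mul_mem (mem1 _) (h.mem2 _)⟩) fun a b => by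
      rw [← QuotientGroup.mk_mul, QuotientGroup.eq, mem_subgroupOf]
      change (ι (a.1 * ac a.2 b.1) * d ^ (3 * (a.2 + b.2).val))⁻¹ *
        (ι a.1 * d ^ (3 * a.2.val) * (ι b.1 * d ^ (3 * b.2.val))) ∈ _
      rw [map_mul, ac, ← h.conj_pow, Fin.val_add]
      have : 3 * a.2.val + 3 * b.2.val = 3 * ((a.2.val + b.2.val) % 5) + 15 * ((a.2.val + b.2.val) / 5) := by omega
      convert pow_mem h.d15 ((a.2.val + b.2.val) / 5) using 1
      rw [← pow_mul, eq_comm, ← mul_right_inj (d ^ (3 * ((a.2.val + b.2.val) % 5))), ← pow_add, ← this, pow_add]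
      group
  have hj : Function.Bijective j := by
    refine ⟨(injective_iff_map_eq_one j).2 fun g hg => ?_, fun q => ?_⟩
    · have h1 : ι g.1 * d ^ (3 * g.2.val) ∈ piCoreOf {2}ᶜ 𝐂[ι z0] :=
        mem_subgroupOf.1 ((QuotientGroup.eq_one_iff _).1 hg)
      have h2 := mul_mem h1 (conj_mem_of_mem_normalizer (piCoreOf_norm _ _ (mem1 (ι := ι) y0)) (inv_mem h1))
      have h3 : g.2 = 0 := ac_inj g.1 g.2 (h.eq_one (by
        convert h2 using 1
        simp only [map_mul, map_inv, ac, ← h.conj_pow]; group))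
      rw [h3] at h1
      exact Prod.ext (h.eq_one (by simpa using h1)) h3
    · obtain ⟨g, rfl⟩ := QuotientGroup.mk_surjective q
      obtain ⟨k, hk, x, a, ha, e⟩ := h.cz g g.2
      refine ⟨mkH x ⟨a, ha⟩, QuotientGroup.eq.2 (mem_subgroupOf.2 ?_)⟩
      change (ι x * d ^ (3 * a))⁻¹ * g ∈ _
      rw [e, mul_assoc k, ← mul_assoc]
      exact conj_inv_mem_of_mem_normalizer (piCoreOf_norm _ _ (mul_mem (mem1 x) (h.mem2 a))) hk
  refine ⟨(MulEquiv.ofBijective j hj).symm.toMonoidHom.comp (QuotientGroup.mk' _),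
    (MulEquiv.ofBijective j hj).symm.surjective.comp (QuotientGroup.mk'_surjective _), fun g => ?_, fun g x a e => ?_⟩
  · simp [mem_subgroupOf]
  · refine (MulEquiv.ofBijective j hj).symm_apply_eq.2 ?_
    exact congrArg QuotientGroup.mk (Subtype.ext e)

theorem cst (a : ℕ) : constt {2} (ι z0 * d ^ (3 * a)) = ι z0 :=
  constt_unique ((piElt_T0 _).map ι) ((piElt_two_compl.2 h.odd).pow _)
    (mem_centralizer_singleton_iff.1 (h.mem2 a)).symm rfl
end S15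

theorem sum_B0_pi {H : Type*} [Group H] [Finite H] (π : H →* H0) (hs : Function.Surjective π)
    (hk : ∀ g, π g = 1 → PiElt {2}ᶜ g) {M : Type*} [AddCommMonoid M] (F : (H → ℂ) → M) :
    ∑ ψ ∈ B0 H 2, F ψ = ∑ ψ ∈ irr H0, F (ψ ∘ π) := by
  classical
  rw [← sum_irr_comp_surj π hs]
  refine sum_congr ?_ fun _ _ => rfl
  ext ψ
  rw [mem_filter, mem_irr]
  refine ⟨fun h => ⟨irr_of_B0 h, le_cfker_of_B0 h _ ((piGrp_compl_singleton Nat.prime_two).1
    (piGrp_iff_forall_piElt.2 hk))⟩, fun h => ?_⟩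
  obtain ⟨θ, hθ, rfl⟩ := h.1.exists_defl π hs h.2
  have : regI H 2 = regI H0 2 ∘ π := funext fun g => by
    by_cases e : PiElt {2}ᶜ g
    · rw [regI_of e, Function.comp_apply, regI_of (e.map π)]
    · rw [regI_of_not e, Function.comp_apply, regI_of_not fun e' => e (piElt_of_map π e' hk)]
  rw [mem_B0_iff h.1, this, ip_comp_surj π hs]
  exact H0_block hθ

namespace S15
variable {ι : T0 →* G} {d : G} (h : S15 ι d)
include h

theorem hC (a : ℕ) (g : G) (hg : g * constt {2} ((𝐂[ι z0]).subtype ⟨_, mul_mem (mem1 z0) (h.mem2 a)⟩) =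
    constt {2} ((𝐂[ι z0]).subtype ⟨_, mul_mem (mem1 z0) (h.mem2 a)⟩) * g) : g ∈ (𝐂[ι z0]).subtype.range := by
  rw [range_subtype, mem_centralizer_singleton_iff]
  simpa [h.cst] using hg

theorem KK_t (a b : Fin 5) : KK (ι z0 * d ^ (3 * a.val)) (ι z0 * d ^ (3 * b.val)) =
    if a = b then (if a = 0 then 320 else 20) else 0 := by
  obtain ⟨π, h1, h2, h3⟩ := h.exists_pi
  refine (sum_B0_eq (p := 2) (𝐂[ι z0]).subtype (a := ⟨_, mul_mem (mem1 z0) (h.mem2 a)⟩)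
    (b := ⟨_, mul_mem (mem1 z0) (h.mem2 b)⟩) (Subtype.ext ?_) (h.hC a)).trans ?_
  · refine (map_constt (𝐂[ι z0]).subtype _ _).trans (Eq.trans ?_ (map_constt (𝐂[ι z0]).subtype _ _).symm)
    exact (h.cst a).trans (h.cst b).symm
  · rw [sum_B0_pi π h1 fun g hg => piElt_coe.1 ((piCoreOf_piGrp _ _).piElt ((h2 g).1 hg)), ← H0_col]
    simp only [Function.comp_apply, h3 ⟨_, mul_mem (mem1 z0) (h.mem2 a)⟩ z0 a rfl,
      h3 ⟨_, mul_mem (mem1 z0) (h.mem2 b)⟩ z0 b rfl]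

theorem int_t {χ : G → ℂ} (hχ : χ ∈ B0 G 2) {v : ℂˣ} (hv : v ^ 5 = 1) :
    ∃ N : ℤ, ∑ a : Fin 5, χ (ι z0 * d ^ (3 * a.val)) * v ^ a.val = 5 * N := by
  obtain ⟨π, h1, h2, h3⟩ := h.exists_pi
  have hi := irr_of_B0 hχ
  have hΘ : IsVC (∑ ψ ∈ irr H0, ⟪χ ∘ (𝐂[ι z0]).subtype, ψ ∘ π⟫ • ψ) := IsVC.sum fun ψ hψ => by
    obtain ⟨n, hn⟩ := (hi.isVC.comp (𝐂[ι z0]).subtype).ip_int ((mem_irr.1 hψ).isVC.comp π)
    rw [hn]; exact (mem_irr.1 hψ).isVC.intCast_smul n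
  have e : ∀ a : Fin 5, (∑ ψ ∈ irr H0, ⟪χ ∘ (𝐂[ι z0]).subtype, ψ ∘ π⟫ • ψ) (mkH z0 a) =
      χ (ι z0 * d ^ (3 * a.val)) := fun a => by
    have := second_main (p := 2) (𝐂[ι z0]).subtype hi.isCF (h.hC a)
    rw [pi0_of_mem hχ, pi0_apply,
      sum_B0_pi π h1 fun g hg => piElt_coe.1 ((piCoreOf_piGrp _ _).piElt ((h2 g).1 hg))] at this
    rw [Finset.sum_apply]
    refine Eq.trans ?_ this.symm
    simp only [Function.comp_apply, h3 ⟨_, mul_mem (mem1 z0) (h.mem2 a)⟩ z0 a rfl, Pi.smul_apply, smul_eq_mul]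
  generalize ∑ ψ ∈ irr H0, ⟪χ ∘ (𝐂[ι z0]).subtype, ψ ∘ π⟫ • ψ = Θ at hΘ e
  obtain ⟨N, hN⟩ := int2 hΘ (n := 1) (m := 4) (a := mkH z0 0) (b := mkH 1 1) (by decide +kernel) (by decide +kernel)
    (H0_z _) (u := 1) (one_pow _) hv
  obtain ⟨M, hM⟩ := int2 hΘ (n := 1) (m := 4) (a := mkH z0 0) (b := mkH 1 1) (by decide +kernel) (by decide +kernel)
    (H0_z _) (u := -1) (by simp) hv
  refine ⟨N - M, ?_⟩
  change ∑ i : Fin 2, ∑ j : Fin 5, _ = _ at hN hM
  simp only [Fin.sum_univ_two, H0_φ, Fin.val_zero, Fin.val_one, pow_zero, pow_one, one_mul, H0_zφ, e, Units.val_one,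
    Units.val_neg, neg_mul, mul_neg, sum_neg_distrib] at hN hM
  push_cast at hN hM ⊢
  linear_combination (1 / 2 : ℂ) * (hN - hM)
end S15

end CA.Ly
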