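/-
Lyons' theorem: the automizer of the Sylow 2-subgroup has order 15; the principal 2-block.
-/
import Cfsg.Agent.Lib.Ly.H0
import Cfsg.Agent.Lib.Ly.Ar3

set_option autoImplicit false
set_option linter.unusedSectionVars false

namespace CA.Ly

open Cfsg Subgroup CA CA.Ch CA.Blk Finset
open scoped ComplexConjugate

variable {G : Type*} [Group G] [Finite G]

def cl15 (x : T0) : Fin 3 := if x = 1 then 0 else if x * x = 1 then 1 else 2
theorem cl15_sum0 : ∀ i, ∑ x with cl15 x = i, muZ 0 x = ![1, 3, 60] i := by decide +kernel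
theorem cl15_sum1 : ∀ i, ∑ x with cl15 x = i, muZ 1 x = ![1, 3, -4] i := by decide +kernel
theorem y_orb : ∀ x : T0, x * x ≠ 1 → ∃ i < 15, ∃ c, c * δ^[i] y0 * c⁻¹ = x := by decide +kernel
theorem z_orb : ∀ x : T0, x * x = 1 → x ≠ 1 → ∃ i < 3, δ^[i] z0 = x := by decide +kernel
theorem y0_ne : y0 * y0 ≠ 1 := by decide +kernel
theorem z0_sq : z0 * z0 = 1 := by decide +kernel

theorem sum_zeta {ζ : ℂ} (h : IsPrimitiveRoot ζ 5) (m : ℕ) :
    ∑ a : Fin 5, (ζ ^ m) ^ a.val = if m % 5 = 0 then 5 else 0 := by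
  split_ifs with e
  · simp [(h.pow_eq_one_iff_dvd m).2 (Nat.dvd_of_mod_eq_zero e)]
  · rw [Fin.sum_univ_eq_sum_range]
    exact (h.pow_of_coprime m ((Nat.coprime_comm.1 ((Nat.Prime.coprime_iff_not_dvd (by norm_num)).2
      fun c => e (Nat.mod_eq_zero_of_dvd c))))).geom_sum_eq_zero (by norm_num)

/-- the columns `b_j` -/
noncomputable def bC (ι : T0 →* G) (d : G) (ζ : ℂ) (j : ℕ) (χ : G → ℂ) : ℂ :=
  (∑ a : Fin 5, χ (ι z0 * d ^ (3 * a.val)) * (ζ ^ j) ^ a.val) / 5 - χ (ι z0) / 4 + χ (ι y0) / 4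

open Classical in
/-- the class multiplication number -/
noncomputable def NN [Fintype G] (t : G) : ℕ := (univ.filter fun y => IsConj (constt {2} (y * t * y⁻¹ * t)) t).card

namespace S15
variable {ι : T0 →* G} {d : G} (h : S15 ι d)
include h

theorem conj_z {z : T0} (hz : z * z = 1) (h1 : z ≠ 1) : IsConj (ι z0) (ι z) := by
  obtain ⟨i, -, e⟩ := z_orb z hz h1
  exact isConj_iff.2 ⟨d ^ i, by rw [h.conj_pow, e]⟩

theorem conj_y {y : T0} (hy : y * y ≠ 1) : IsConj (ι y0) (ι y) := by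
  obtain ⟨i, -, c, e⟩ := y_orb y hy
  exact isConj_iff.2 ⟨ι c * d ^ i, by rw [← e, map_mul, map_mul, ← h.conj_pow, map_inv]; group⟩

theorem vals {χ : G → ℂ} (hχ : IsCF χ) (x : T0) : χ (ι x) = ![χ 1, χ (ι z0), χ (ι y0)] (cl15 x) := by
  by_cases h1 : x * x = 1
  · by_cases h0 : x = 1
    · simp [cl15, h0]
    · simp [cl15, h0, h1, hχ.of_isConj (h.conj_z h1 h0)]
  · have h0 : x ≠ 1 := fun e => h1 (by simp [e])
    simp [cl15, h0, h1, hχ.of_isConj (h.conj_y h1)]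

theorem ints {χ : G → ℂ} (hχ : IsChar χ) : ∃ (x N : ℤ) (m n : ℕ), χ 1 = x ∧ χ (ι z0) = (x - 16 * N : ℤ) ∧
    χ (ι y0) = (m - n : ℤ) ∧ x + 3 * (x - 16 * N) - 4 * (m - n) = 64 * n := by
  obtain ⟨x, hx⟩ := hχ.nat
  obtain ⟨N, hN⟩ := res_A hχ ι (τ := χ (ι z0)) (c := χ (ι y0))
    (fun z hz h1 => (hχ.isCF.of_isConj (h.conj_z hz h1)).symm) fun y _ h2 => (hχ.isCF.of_isConj (h.conj_y h2)).symm
  obtain ⟨m, hm⟩ := res_mu hχ ι cl15 _ (h.vals hχ.isCF) (w := 0) (by norm_num)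
  obtain ⟨n, hn⟩ := res_mu hχ ι cl15 _ (h.vals hχ.isCF) (w := 1) (by norm_num)
  simp only [cl15_sum0, cl15_sum1] at hm hn
  simp [Fin.sum_univ_succ] at hm hn
  refine ⟨x, N, m, n, by exact_mod_cast hx, by push_cast; linear_combination hx - hN,
    by push_cast; linear_combination (1 / 64 : ℂ) * (hm - hn), ?_⟩
  have : (x + 3 * (x - 16 * N) - 4 * (m - n) : ℂ) = 64 * n := by
    linear_combination -4 * hx + 3 * hN + hn + (1 / 16 : ℂ) * (hm - hn)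
  exact_mod_cast this

theorem prod_conj {u v : G} (hu : u * u = 1) (hv : v * v = 1) (e : IsConj (constt {2} (u * v)) (ι z0)) :
    ∃ k ∈ piCoreOf {2}ᶜ 𝐂[ι z0], IsConj (u * v) (ι z0 * k) := by
  obtain ⟨g, hg⟩ := isConj_iff.1 e
  rw [← constt_conj, ← conj_mul] at hg
  have hu' := Inv.conj_mul_self hu g
  have hv' := Inv.conj_mul_self hv g
  suffices ∃ k ∈ piCoreOf {2}ᶜ 𝐂[ι z0], g * u * g⁻¹ * (g * v * g⁻¹) = ι z0 * k by
    obtain ⟨k, hk, e⟩ := this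
    exact ⟨k, hk, isConj_iff.2 ⟨g, by rw [← e, conj_mul]⟩⟩
  generalize g * u * g⁻¹ = u at hg hu'
  generalize g * v * g⁻¹ = v at hg hv'
  obtain ⟨π, -, h2, -⟩ := h.exists_pi
  obtain ⟨j, hj⟩ := mem_zpowers_iff.1 (constt_mem_zpowers {2} (u * v))
  have tt : (ι z0)⁻¹ = ι z0 := Inv.inv_eq_self (by rw [← map_mul, z0_sq, map_one])
  have a1 : u ∈ 𝐂[ι z0] := by
    rw [mem_centralizer_singleton_iff, ← hg, ← hj, Inv.mul_zpow_left hu' hv', zpow_neg, hj, hg, tt]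
  have a2 : v ∈ 𝐂[ι z0] := by
    rw [mem_centralizer_singleton_iff, ← hg, ← hj, Inv.mul_zpow_right hu' hv', zpow_neg, hj, hg, tt]
  have b1 := H0_inv (π ⟨u, a1⟩) (by rw [← map_mul, ← map_one π]; congr 1; exact Subtype.ext hu')
  have b2 := H0_inv (π ⟨v, a2⟩) (by rw [← map_mul, ← map_one π]; congr 1; exact Subtype.ext hv')
  have b3 := H0_inv2 _ _ b1.1 b2.1
  rw [← b1.2, ← b2.2, ← map_mul] at b3
  refine ⟨constt {2}ᶜ (u * v), ?_, by rw [← hg, constt_mul_compl]⟩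
  have := (h2 (constt {2}ᶜ (⟨u, a1⟩ * ⟨v, a2⟩))).1 (by
    rw [map_constt]; exact constt_eq_one (by rw [compl_compl]; exact piElt_two_of_sq b3))
  exact (map_constt (𝐂[ι z0]).subtype _ (⟨u, a1⟩ * ⟨v, a2⟩)) ▸ this

theorem app_O {χ : G → ℂ} (hχ : χ ∈ B0 G 2) {k : G} (hk : k ∈ piCoreOf {2}ᶜ 𝐂[ι z0]) : χ (ι z0 * k) = χ (ι z0) :=
  apply_mul_of_B0 hχ ((piElt_T0 _).map ι) (piCoreOf_le _ _) (piCoreOf_norm _ _) (piCoreOf_piGrp _ _) hk

theorem cls_t [Fintype G] (a : Fin 5) : Nat.card G * ∑ χ ∈ B0 G 2, χ (ι z0) * χ (ι z0) / χ 1 *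
    conj (χ (ι z0 * d ^ (3 * a.val))) = if a = 0 then 320 * (NN (ι z0) : ℂ) else 0 := by
  classical
  have tt : ι z0 * ι z0 = 1 := by rw [← map_mul, z0_sq, map_one]
  have k := h.KK_t 0 a
  simp only [Fin.val_zero, mul_zero, pow_zero, mul_one, if_true, eq_comm (a := (0 : Fin 5))] at k
  rw [cls_eq, sum_congr rfl (g := fun y => if IsConj (constt {2} (y * ι z0 * y⁻¹ * ι z0)) (ι z0) then
    KK (ι z0) (ι z0 * d ^ (3 * a.val)) else 0) fun y _ => ?_, ← sum_filter, sum_const, k, NN]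
  · split_ifs <;> simp [mul_comm]
  · split_ifs with e
    · obtain ⟨k, hk, e⟩ := h.prod_conj (Inv.conj_mul_self tt y) tt e
      exact sum_congr rfl fun χ hχ => by rw [(irr_of_B0 hχ).isCF.of_isConj e, h.app_O hχ hk]
    · exact KK_zero (by rwa [h.cst])

theorem NN_pos [Fintype G] : 0 < NN (ι z0) := by
  classical
  refine card_pos.2 ⟨d, mem_filter.2 ⟨mem_univ _, ?_⟩⟩
  rw [h.hd, ← map_mul, Su.cst]
  exact (h.conj_z (by decide +kernel) (by decide +kernel)).symm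

theorem bC_int {ζ : ℂ} (hζ : IsPrimitiveRoot ζ 5) {χ : G → ℂ} (hχ : χ ∈ B0 G 2) (j : ℕ) :
    ∃ n : ℤ, bC ι d ζ j χ = n := by
  obtain ⟨x, N, m, n, -, h2, h3, h4⟩ := h.ints (irr_of_B0 hχ).isChar
  obtain ⟨M, hM⟩ := h.int_t hχ (v := Units.mk0 ζ (hζ.ne_zero (by norm_num)) ^ j)
    (Units.ext (by simp [pow_right_comm ζ j, hζ.pow_eq_one]))
  have h4 : (x + 3 * (x - 16 * N) - 4 * (m - n) : ℂ) = 64 * n := by exact_mod_cast h4
  refine ⟨M - 4 * n + N, ?_⟩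
  simp only [Units.val_pow_eq_pow_val, Units.val_mk0] at hM
  rw [bC, hM, h2, h3]
  push_cast
  linear_combination (-1 / 16 : ℂ) * h4

omit h in
theorem bC_sum {ζ : ℂ} (hζ : IsPrimitiveRoot ζ 5) (χ : G → ℂ) :
    bC ι d ζ 0 χ + bC ι d ζ 1 χ + bC ι d ζ 2 χ + bC ι d ζ 3 χ + bC ι d ζ 4 χ = -χ (ι z0) / 4 + 5 / 4 * χ (ι y0) := by
  have h1 := hζ.pow_eq_one
  have h2 := hζ.geom_sum_eq_zero (by norm_num)
  simp only [sum_range_succ, sum_range_zero] at h2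
  simp [bC, Fin.sum_univ_succ]
  linear_combination (1 / 5 : ℂ) * (χ (ι z0 * d ^ 3) + χ (ι z0 * d ^ 6) + χ (ι z0 * d ^ 9) + χ (ι z0 * d ^ 12)) * h2 +
    (1 / 5 : ℂ) * (χ (ι z0 * d ^ 6) * (ζ + ζ ^ 3) + χ (ι z0 * d ^ 9) * (ζ + ζ ^ 4 + ζ ^ 2 + ζ ^ 7) +
      χ (ι z0 * d ^ 12) * (ζ ^ 3 + ζ ^ 2 + ζ ^ 7 + ζ + ζ ^ 6 + ζ ^ 11)) * h1

theorem main [IsSimpleGroup G] [Fintype G] :
    2 * Nat.card G = 195 * NN (ι z0) ∧ ∃ χ ∈ B0 G 2, χ 1 + 3 * χ (ι z0) = 0 := by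
  classical
  obtain ⟨ζ, hζ⟩ := exists_primitiveRoot (n := 5) (by norm_num)
  obtain ⟨σ, hσ⟩ := exists_ringEquiv_pow (n := 5) (k := 2) (by norm_num) (by norm_num)
  have one := one_mem_B0 G 2
  have ha : ∀ χ ∈ B0 G 2, (zz (-χ (ι y0)) : ℂ) = -χ (ι y0) := fun χ hχ => zz_spec (by
    obtain ⟨x, N, m, n, -, -, h3, -⟩ := h.ints (irr_of_B0 hχ).isChar
    exact ⟨-(m - n), by rw [h3, Int.cast_neg]⟩)
  have hx : ∀ χ ∈ B0 G 2, (zz (χ 1) : ℂ) = χ 1 := fun χ hχ => zz_spec (by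
    obtain ⟨x, N, m, n, h1, -⟩ := h.ints (irr_of_B0 hχ).isChar
    exact ⟨x, h1⟩)
  have hb : ∀ χ ∈ B0 G 2, ∀ j : ℕ, (zz (bC ι d ζ j χ) : ℂ) = bC ι d ζ j χ := fun χ hχ j => zz_spec (h.bC_int hζ hχ j)
  obtain ⟨t, ht⟩ : ∃ t : (G → ℂ) → ℤ, ∀ χ, t χ = -5 * zz (-χ (ι y0)) - 4 * (zz (bC ι d ζ 0 χ) + zz (bC ι d ζ 1 χ) +
    zz (bC ι d ζ 2 χ) + zz (bC ι d ζ 3 χ) + zz (bC ι d ζ 4 χ)) := ⟨_, fun _ => rfl⟩
  have hτ : ∀ χ ∈ B0 G 2, (t χ : ℂ) = χ (ι z0) := fun χ hχ => by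
    rw [ht]; push_cast; simp only [ha χ hχ, hb χ hχ, bC_sum hζ]; ring
  have cy : ∀ χ ∈ B0 G 2, conj (χ (ι y0)) = χ (ι y0) := fun χ hχ => by
    rw [← neg_inj, ← map_neg, ← ha χ hχ, map_intCast]
  have cζ : conj ζ = ζ ^ 4 := by
    rw [← Complex.inv_eq_conj (hζ.norm'_eq_one (by norm_num)), inv_eq_iff_eq_inv, eq_comm, inv_eq_iff_eq_inv,
      ← one_div, eq_div_iff (hζ.ne_zero (by norm_num)), ← pow_succ, hζ.pow_eq_one]
  have cb : ∀ (F : (G → ℂ) → ℂ) (j : ℕ), ∑ χ ∈ B0 G 2, F χ * zz (bC ι d ζ j χ) =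
      (∑ a : Fin 5, (∑ χ ∈ B0 G 2, F χ * conj (χ (ι z0 * d ^ (3 * a.val)))) * (ζ ^ (4 * j)) ^ a.val) / 5 -
      (∑ χ ∈ B0 G 2, F χ * conj (χ (ι z0))) / 4 + (∑ χ ∈ B0 G 2, F χ * conj (χ (ι y0))) / 4 := fun F j => by
    simp only [sum_mul]
    rw [sum_comm, sum_div, sum_div, sum_div, ← sum_sub_distrib, ← sum_add_distrib]
    refine sum_congr rfl fun χ hχ => ?_
    rw [← map_intCast (starRingEnd ℂ), hb χ hχ, bC]
    simp only [map_add, map_sub, map_div₀, map_sum, map_mul, map_pow, cζ, map_ofNat, ← pow_mul, mul_assoc, ← mul_sum]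
    ring
  have t0 : ι z0 = ι z0 * d ^ (3 * (0 : Fin 5).val) := by simp
  have kty : ∀ a : ℕ, KK (ι z0 * d ^ (3 * a)) (ι y0) = 0 := fun a => h.KK_zy z0_sq y0_ne (h.cst a)
  have kyt : ∀ a : ℕ, KK (ι y0) (ι z0 * d ^ (3 * a)) = 0 := fun a => KK_zero fun e => y0_ne
    (h.sq_of_isConj z0_sq (by rw [h.cst, Su.cst] at e; exact e.symm))
  have cy' : ∀ j : ℕ, ∑ χ ∈ B0 G 2, χ (ι y0) * zz (bC ι d ζ j χ) = 4 := fun j => by
    have k0 := kyt 0
    have k1 := h.KK_y y0_ne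
    unfold KK at kyt k0 k1
    simp only [mul_zero, pow_zero, mul_one] at k0
    simp only [cb, kyt, k0, k1]
    norm_num
  have ct : ∀ (a : Fin 5) (j : ℕ), ∑ χ ∈ B0 G 2, χ (ι z0 * d ^ (3 * a.val)) * zz (bC ι d ζ j χ) =
      4 * (ζ ^ (4 * j)) ^ a.val - if a = 0 then 20 else 0 := fun a j => by
    have k0 := h.KK_t a 0
    have k1 := h.KK_t a
    rw [← t0] at k0
    unfold KK at kty k0 k1
    simp only [cb, kty, k0, k1, ite_mul, zero_mul, sum_ite_eq, mem_univ, if_true]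
    split_ifs with e
    · simp [e]; norm_num
    · ring
  have G0 := Ch.card_ne_zero' G
  suffices H : (16 * NN (ι z0) / Nat.card G : ℚ) = 32 / 195 ∧ ∃ χ ∈ B0 G 2, zz (χ 1) + 3 * t χ = 0 by
    obtain ⟨e, χ, hχ, e'⟩ := H
    refine ⟨?_, χ, hχ, by rw [← hx χ hχ, ← hτ χ hχ]; exact_mod_cast e'⟩
    rw [div_eq_div_iff (by exact_mod_cast Nat.card_pos.ne') (by norm_num)] at e
    have : (2 * Nat.card G : ℚ) = 195 * NN (ι z0) := by linarith
    exact_mod_cast this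
  refine arith15 (B0 G 2) 1 one (fun χ => σ.toRingHom ∘ χ) (fun χ hχ => galois_mem_B0 hχ _)
    (fun χ _ ψ _ e => funext fun g => σ.injective (congrFun e g)) (funext fun g => map_one σ)
    (fun χ => zz (-χ (ι y0))) (fun j χ => zz (bC ι d ζ j χ)) t (fun χ => zz (χ 1)) ⟨?_, fun j => ?_, ?_⟩
    (fun χ hχ => ?_) ht (fun χ hχ h1 => ?_) ?_ (fun j => ?_) (fun j k => ?_) ?_ (fun j => ?_)
    (16 * NN (ι z0) / Nat.card G) ?_ ?_ (fun j => ?_)
  · exact Int.cast_injective (α := ℂ) (by simpa using ha 1 one)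
  · have := hb 1 one j
    simp only [bC, Pi.one_apply, one_mul, sum_zeta hζ] at this ⊢
    refine Int.cast_injective (α := ℂ) (this.trans ?_)
    fin_cases j <;> simp
  · exact Int.cast_injective (α := ℂ) (by simpa using hx 1 one)
  · have f : ∀ w : ℂ, (zz w : ℂ) = w → zz (σ w) = zz w := fun w e => by rw [← e, map_intCast, zz_cast]
    have g : ∀ j k : ℕ, ζ ^ k = ζ ^ (2 * j) → zz (bC ι d ζ k (σ.toRingHom ∘ χ)) = zz (bC ι d ζ j χ) := fun j k e => by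
      rw [← f _ (hb χ hχ j)]
      simp [bC, e, hσ ζ hζ.pow_eq_one, pow_mul, map_ofNat]
    have e5 := hζ.pow_eq_one
    exact ⟨by simpa using f _ (ha χ hχ), g 0 0 rfl, g 3 1 (by linear_combination -ζ * e5), g 1 2 rfl,
      g 4 3 (by linear_combination -ζ ^ 3 * e5), g 2 4 rfl, f _ (hx χ hχ)⟩
  · obtain ⟨x, N, m, n, h2, h3, h4, h5⟩ := h.ints (irr_of_B0 hχ).isChar
    obtain ⟨a1, a2, a3⟩ := int_bounds (irr_of_B0 hχ) h2 h3
    have b1 : t χ = x - 16 * N := by exact_mod_cast (hτ χ hχ).trans h3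
    have b2 : zz (-χ (ι y0)) = -(m - n) := by rw [h4, ← Int.cast_neg, zz_cast]
    have b3 : x - 16 * N ≠ 0 := fun e => h.tau_ne hχ (by rw [h3, e, Int.cast_zero])
    have b4 : x - 16 * N ≠ x := fun e => z_ne.1 (h.inj (by
      rw [map_one]; exact eq_one_of_apply (irr_of_B0 hχ) h1 (by rw [h3, e, h2])))
    simp only [b1, b2, h2, zz_cast]
    omega
  · have := h.KK_y y0_ne
    rw [KK, sum_congr rfl fun χ hχ => by rw [cy χ hχ, ← neg_mul_neg, ← ha χ hχ]] at this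
    exact_mod_cast this
  · have : ∑ χ ∈ B0 G 2, (zz (-χ (ι y0)) : ℂ) * zz (bC ι d ζ j χ) = -4 := by
      rw [← cy' j, ← sum_neg_distrib]
      exact sum_congr rfl fun χ hχ => by rw [ha χ hχ, neg_mul]
    exact_mod_cast this
  · have : ∑ χ ∈ B0 G 2, (zz (bC ι d ζ j χ) : ℂ) * zz (bC ι d ζ k χ) = (∑ a : Fin 5, (∑ χ ∈ B0 G 2,
        χ (ι z0 * d ^ (3 * a.val)) * zz (bC ι d ζ k χ)) * (ζ ^ j.val) ^ a.val) / 5 -
        (∑ χ ∈ B0 G 2, χ (ι z0) * zz (bC ι d ζ k χ)) / 4 + (∑ χ ∈ B0 G 2, χ (ι y0) * zz (bC ι d ζ k χ)) / 4 := by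
      simp only [sum_mul]
      rw [sum_comm, sum_div, sum_div, sum_div, ← sum_sub_distrib, ← sum_add_distrib]
      refine sum_congr rfl fun χ hχ => ?_
      rw [hb χ hχ j, bC]
      simp only [mul_right_comm _ (zz _ : ℂ), ← sum_mul]
      ring
    have k0 := ct 0 k
    rw [← t0] at k0
    simp only [ct, k0, cy', sub_mul, sum_sub_distrib, mul_assoc, ← mul_pow, ← pow_add, ← mul_sum, sum_zeta hζ,
      ite_mul, zero_mul, sum_ite_eq', mem_univ, if_true] at this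
    refine Int.cast_injective (α := ℂ) ?_
    push_cast
    rw [this]
    fin_cases j <;> fin_cases k <;> norm_num
  · have := h.KK_one (x := y0) (by decide +kernel) (Su.cst y0)
    rw [KK, ← neg_eq_zero, ← sum_neg_distrib,
      sum_congr rfl fun χ hχ => by rw [← neg_mul, ← ha χ hχ, ← hx χ hχ, map_intCast]] at this
    exact_mod_cast this
  · have k0 : ∀ g x, constt {2} g = ι x → x ≠ 1 → ∑ χ ∈ B0 G 2, χ 1 * conj (χ g) = 0 := fun g x e hx =>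
      KK_zero fun c => hx (h.inj (by rw [e, constt_one, isConj_one_right] at c; rw [c, map_one]))
    have := cb (fun χ => χ 1) j
    simp only [k0 _ _ (h.cst _) z_ne.1, k0 _ _ (Su.cst _) z_ne.1, k0 _ y0 (Su.cst _) (by decide +kernel)] at this
    rw [sum_congr rfl fun χ hχ => by rw [← hx χ hχ, mul_comm]] at this
    norm_num at this
    exact_mod_cast this
  · have := h.NN_pos
    have := Nat.card_pos (α := G)
    positivity
  · have := h.cls_y (t := ι z0) (by rw [← map_mul, z0_sq, map_one]) y0_ne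
    rw [← neg_eq_zero, ← sum_neg_distrib] at this
    refine Rat.cast_injective (α := ℂ) (Eq.trans ?_ (this.trans Rat.cast_zero.symm))
    push_cast
    exact sum_congr rfl fun χ hχ => by rw [ha χ hχ, hτ χ hχ, hx χ hχ, cy χ hχ]; ring
  · have k0 := h.cls_y (t := ι z0) (by rw [← map_mul, z0_sq, map_one]) y0_ne
    have k1 := fun a => (eq_div_iff G0).2 ((mul_comm _ _).trans (h.cls_t a))
    have k2 := k1 0
    rw [← t0] at k2
    have := cb (fun χ => χ (ι z0) * χ (ι z0) / χ 1) j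
    simp only [k0, k1, k2, ite_div, zero_div, ite_mul, zero_mul, sum_ite_eq', mem_univ, if_true] at this
    refine Rat.cast_injective (α := ℂ) ?_
    push_cast
    refine (sum_congr rfl fun χ hχ => ?_).trans (this.trans ?_)
    · rw [hτ χ hχ, hx χ hχ]; ring
    · simp; ring

end S15
end CA.Ly
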