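/-
Lyons' theorem, block D: the recognition theorem.
-/
import Cfsg.Agent.Lib.Ly.RecC

set_option autoImplicit false

namespace CA.Ly

open Cfsg Subgroup CA CA.Gol

/-- the properties of the code of an involution swapping the point at infinity and `1` -/
structure Inv (f : ℕ → ℕ) (k : ℕ) : Prop where
  lt : ∀ n < 65, f n < 65
  h0 : f 0 = 64
  inv : ∀ n < 65, f (f n) = n
  eqv : ∀ n < 65, f (pw 1 n) = pw k (f n)
  fix : ∀ m < 65, ∀ n < 65, f m = m → f n = n → m = n
  test : ∃ j < 15, ∀ n < 65, f (Lc (lk iTab (f 1)) (f (Lc 1 (f (Lc (f 17) n))))) = pw j n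

/-- `x` is unknown or `y` -/
def Rl (x y : ℕ) : Prop := x = 127 ∨ x = y
/-- the partial function `F` agrees with `f` -/
def Ap (F f : ℕ → ℕ) : Prop := F 127 = 127 ∧ ∀ x < 65, Rl (F x) (f x)

theorem Ap.rl {F f : ℕ → ℕ} (h : Ap F f) {x y : ℕ} (hy : y < 65) (e : Rl x y) : Rl (F x) (f y) := by
  rcases e with rfl | rfl
  · exact Or.inl h.1
  · exact h.2 _ hy

theorem Rl.lc {x y : ℕ} (e : Rl x y) (a : ℕ) : Rl (Lc a x) (Lc a y) := by
  rcases e with rfl | rfl
  · exact Or.inl rfl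
  · exact Or.inr rfl

theorem Rl.df {x y : ℕ} (e : Rl x y) : df x y = false := by
  rcases e with rfl | rfl <;> simp [Ly.df]

theorem ap_bot (f : ℕ → ℕ) : Ap bot f := ⟨rfl, fun _ _ => Or.inl rfl⟩

namespace Inv
variable {f F : ℕ → ℕ} {k : ℕ} (h : Inv f k)
include h

theorem eqv' (i : ℕ) {n : ℕ} (hn : n < 65) : f (pw i n) = pw (k * i) (f n) := by
  induction i with
  | zero => rw [pw_zero n hn, mul_zero, pw_zero _ (h.lt n hn)]
  | succ i ih => rw [add_comm, ← pw_add _ _ hn, h.eqv _ (pw_lt _ hn), ih, pw_add _ _ (h.lt n hn), mul_add, mul_one]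

theorem ap_pf {u v : ℕ} (hu : u < 65) (e : f u = v) (hF : Ap F f) : Ap (pf k u v F) f := by
  have hv : v < 65 := e ▸ h.lt u hu
  have e' : f v = u := by rw [← e, h.inv u hu]
  constructor
  · rw [pf, beq_false_iff.2 (orb_ne u hu), beq_false_iff.2 (orb_ne v hv)]; exact hF.1
  · intro x hx
    rw [pf]
    cases a : Nat.beq (orbc x) (orbc u)
    · cases b : Nat.beq (orbc x) (orbc v)
      · exact hF.2 x hx
      · right; conv_rhs => rw [orb_lg hx hv (beq_iff.1 b), h.eqv' _ hv, e']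
        rfl
    · right; conv_rhs => rw [orb_lg hx hu (beq_iff.1 a), h.eqv' _ hu, e]
      rfl

theorem ninv_eq (hF : Ap F f) {x : ℕ} (hx : x < 65) : ninv F x = false := by
  rw [ninv, force_eq, force_eq]
  have := hF.rl (h.lt x hx) (hF.2 x hx)
  rw [h.inv x hx] at this
  exact this.df

omit h in
theorem fix_of (hF : Ap F f) {x : ℕ} (hx : x < 65) (e : F x = x) : f x = x := by
  rcases hF.2 x hx with a | a <;> omega

theorem fx_two (hF : Ap F f) {u v : ℕ} (hu : u < 65) (hv : v < 65) (a : fx F u = true) (b : fx F v = true) :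
    orbc u = orbc v := by
  obtain ⟨i, hi, a⟩ := anyLt_iff.1 a
  obtain ⟨j, hj, b⟩ := anyLt_iff.1 b
  rw [force_eq, beq_iff] at a b
  rw [← orb_pw hu hi, ← orb_pw hv hj,
    h.fix _ (pw_lt _ hu) _ (pw_lt _ hv) (fix_of hF (pw_lt _ hu) a) (fix_of hF (pw_lt _ hv) b)]

theorem ref_eq (hF : Ap F f) : ref F (lk iTab (f 1)) = false := by
  obtain ⟨j, hj, t⟩ := h.test
  rw [ref, force_eq, force_eq, force_eq, force_eq]
  rcases hF.2 17 (by norm_num) with a | a
  · rw [a]; rfl
  have key : ∀ n < 65, df (tst F (F 17) (lk iTab (f 1)) n) (pw j n) = false := fun n hn => by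
    rw [tst, force_eq, force_eq, force_eq, a, ← t n hn]
    have l1 := Lc_lt (f 17) hn
    have l2 := Lc_lt 1 (h.lt _ l1)
    exact (hF.rl (Lc_lt _ (h.lt _ l2)) ((hF.rl l2 ((hF.2 _ l1).lc 1)).lc _)).df
  rw [Bool.and_eq_false_iff, ← Bool.not_eq_true (allLt _ _), allLt_iff]
  right; intro H
  have := H j hj
  rw [key 1 (by norm_num), key 5 (by norm_num), key 7 (by norm_num), key 16 (by norm_num)] at this
  simp at this

theorem main (hk : k < 15) : ∃ j, ∀ n < 65, f n = g0c (pw j n) := by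
  have l1 := h.lt 1 (by norm_num)
  have c := allLt_iff.1 fin_chk k hk
  have kk : pw (Nat.mul k k) 1 = pw 1 1 := by
    have := h.eqv' k l1
    rw [← h.eqv 1 (by norm_num), h.inv _ (pw_lt _ (by norm_num)), h.inv 1 (by norm_num)] at this
    exact this.symm
  rw [beq_iff.2 kk, Bool.not_true, Bool.false_or] at c
  have c0 := allLt_iff.1 c _ (h.lt 16 (by norm_num))
  have A : ∀ {F}, Ap F f → Ap (pf k 0 64 (pf k 16 (f 16) F)) f := fun hF =>
    h.ap_pf (by norm_num) h.h0 (h.ap_pf (by norm_num) rfl hF)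
  have A0 := A (ap_bot f)
  simp only [fin0] at c0
  rw [h.ninv_eq A0 (by norm_num), h.ninv_eq A0 (pw_lt _ (h.lt 16 (by norm_num))), Bool.false_or, Bool.false_or,
    Bool.or_eq_true, Bool.and_eq_true, beq_iff, beq_iff] at c0
  rcases c0 with c0 | c0
  · exact absurd (h.fix 16 (by norm_num) 32 (by norm_num) (fix_of A0 (by norm_num) c0.1)
      (fix_of A0 (by norm_num) c0.2)) (by norm_num)
  have c1 := allLt_iff.1 c0 _ l1
  have A1 := A (h.ap_pf (u := 1) (by norm_num) rfl (ap_bot f))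
  simp only [fin1] at c1
  rw [h.ninv_eq A1 (by norm_num), Bool.false_or, Bool.or_eq_true, Bool.and_eq_true, Bool.and_eq_true, force_eq] at c1
  rcases c1 with c1 | c1
  · exact absurd (h.fx_two A1 (by norm_num) (by norm_num) c1.1.2 c1.2) (by decide +kernel)
  generalize er : (Bool.rec 5 7 (Nat.beq (orbc (f 1)) 2) : ℕ) = r at c1
  have hr : r < 65 ∧ orbc 16 ≠ orbc r := by
    rw [← er]; cases Nat.beq (orbc (f 1)) 2 <;> decide +kernel
  have c2 := allLt_iff.1 c1 _ (h.lt r hr.1)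
  have A2 := A (h.ap_pf (u := 1) (by norm_num) rfl (h.ap_pf hr.1 rfl (ap_bot f)))
  simp only [fin2] at c2
  rw [h.ninv_eq A2 hr.1, h.ref_eq A2, Bool.false_or, Bool.or_false, Bool.or_eq_true, Bool.and_eq_true,
    Bool.and_eq_true] at c2
  rcases c2 with c2 | c2
  · exact absurd (h.fx_two A2 (by norm_num) hr.1 c2.1.2 c2.2) hr.2
  obtain ⟨j, _, c3⟩ := anyLt_iff.1 c2
  refine ⟨j, fun n hn => ?_⟩
  have e := beq_iff.1 (allLt_iff.1 c3 n hn)
  have : ∀ x < 65, g0c x ≠ 127 := by decide +kernel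
  rcases A2.2 n hn with a | a
  · exact absurd (e.symm.trans a) (this _ (pw_lt _ hn))
  · exact a.symm.trans e

end Inv

/-- the code of a point -/
def cd : Option T0 → ℕ
  | none => 64
  | some x => x.c
/-- the point with a given code -/
def dc (n : ℕ) : Option T0 := if n < 64 then some (el n) else none

theorem cd_lt (u : Option T0) : cd u < 65 := by
  cases u with
  | none => decide
  | some x => exact x.c_lt.trans (by norm_num)
theorem dc_cd (u : Option T0) : dc (cd u) = u := by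
  cases u with
  | none => rfl
  | some x => rw [cd, dc, if_pos x.c_lt, el_c]
theorem cd_dc : ∀ n < 65, cd (dc n) = n := by decide +kernel
theorem cd_inj {u v : Option T0} (h : cd u = cd v) : u = v := by rw [← dc_cd u, h, dc_cd]

/-- left multiplication -/
def LL (a : T0) : Equiv.Perm (Option T0) := Equiv.optionCongr (Equiv.mulLeft a)
/-- the automorphism -/
def DL : Equiv.Perm (Option T0) := Equiv.optionCongr δ.toEquiv

theorem LL_none (a : T0) : LL a none = none := rfl
theorem LL_some (a x : T0) : LL a (some x) = some (a * x) := rfl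
theorem cd_LL (a : T0) (u : Option T0) : cd (LL a u) = Lc a.c (cd u) := by
  cases u with
  | none => rfl
  | some x => rw [LL_some, cd, cd, Lc, blt_iff.2 x.c_lt, c_mul]
theorem cd_DL (u : Option T0) : cd (DL u) = pw 1 (cd u) := by
  cases u with
  | none => decide +kernel
  | some x => revert x; decide +kernel
theorem cd_DL_pow (i : ℕ) (u : Option T0) : cd ((DL ^ i) u) = pw i (cd u) := by
  induction i with
  | zero => rw [pow_zero, pw_zero _ (cd_lt u)]; rfl
  | succ i ih => rw [pow_succ', Equiv.Perm.mul_apply, cd_DL, ih, pw_add _ _ (cd_lt u), add_comm]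

/-- the permutation group on 65 points -/
def Gam : Subgroup (Equiv.Perm (Option T0)) :=
  closure {σ | (∃ a, σ = LL a) ∨ σ = DL ∨ ∀ u, cd (σ u) = g0c (cd u)}

variable {G : Type*} [Group G] [Finite G] {ι : T0 →* G} {d : G}

theorem recog_of_rep (ρ : G →* Equiv.Perm (Option T0)) (h1 : ∀ a, ρ (ι a) = LL a) (h2 : ρ d = DL)
    (h3 : ∀ g, ρ g none = none → ∃ x, ∃ i < 15, g = ι x * d ^ i) (h4 : ∃ g, ρ g none = some 1) :
    ρ.range = Gam := by
  have D0 : ∀ i, (DL ^ i) none = none := fun i => cd_inj (by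
    rw [cd_DL_pow, ← pw_mod]; generalize (i % 15) = j, Nat.mod_lt i (show 0 < 15 by norm_num) = hj
    revert j; decide +kernel)
  have D1 : ∀ i, (DL ^ i) (some 1) = some 1 := fun i => cd_inj (by
    rw [cd_DL_pow, ← pw_mod]; generalize (i % 15) = j, Nat.mod_lt i (show 0 < 15 by norm_num) = hj
    revert j; decide +kernel)
  have st : ∀ g, ρ g none = none → ρ g (some 1) = some 1 → ∃ i < 15, ρ g = DL ^ i := fun g a b => by
    obtain ⟨x, i, hi, rfl⟩ := h3 g a
    rw [map_mul, map_pow, h1, h2, Equiv.Perm.mul_apply, D1, LL_some, mul_one, Option.some.injEq] at b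
    exact ⟨i, hi, by rw [b, map_one, one_mul, map_pow, h2]⟩
  obtain ⟨g1, hg1⟩ := h4
  have a0 : ρ g1⁻¹ (some 1) = none := by rw [← hg1, map_inv]; exact Equiv.symm_apply_apply _ _
  obtain ⟨t, ht⟩ : ∃ t, ρ g1⁻¹ (some z0) = some t := Option.ne_none_iff_exists'.1 fun e =>
    z_ne.1 (Option.some.inj ((ρ g1⁻¹).injective (e.trans a0.symm)))
  obtain ⟨c, c1, c2⟩ : ∃ c, ρ c (some 1) = none ∧ ρ c (some z0) = some 1 := ⟨ι t⁻¹ * g1⁻¹, by
    rw [map_mul, Equiv.Perm.mul_apply, a0, h1, LL_none], by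
    rw [map_mul, Equiv.Perm.mul_apply, ht, h1, LL_some, inv_mul_cancel]⟩
  have zz : z0 * z0 = 1 := by decide +kernel
  obtain ⟨w, w1, w2, w3⟩ : ∃ w, ρ w none = some 1 ∧ (∀ u, ρ w (ρ w u) = u) ∧
      ∀ u v, ρ w u = u → ρ w v = v → u = v := by
    have e : ∀ u, ρ (c * ι z0 * c⁻¹) (ρ c u) = ρ c (LL z0 u) := fun u => by
      rw [← Equiv.Perm.mul_apply, ← map_mul, inv_mul_cancel_right, map_mul, h1, Equiv.Perm.mul_apply]
    have fx : ∀ u, ρ (c * ι z0 * c⁻¹) u = u → u = ρ c none := fun u hu => by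
      obtain ⟨u, rfl⟩ := (ρ c).surjective u
      rw [e, (ρ c).apply_eq_iff_eq] at hu
      cases u with
      | none => rfl
      | some x => exact absurd (mul_eq_right.1 (Option.some.inj hu)) z_ne.1
    refine ⟨c * ι z0 * c⁻¹, by rw [← c1, e, LL_some, mul_one, c2], fun u => ?_,
      fun u v a b => (fx u a).trans (fx v b).symm⟩
    rw [← Equiv.Perm.mul_apply, ← map_mul, conj_mul, ← map_mul, zz]; simp
  have w0 : ρ w (some 1) = none := by rw [← w1, w2]
  obtain ⟨k, hk, ek⟩ := st (w * d * w) (by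
    simp only [map_mul, Equiv.Perm.mul_apply, w1, h2]; rw [show DL (some 1) = some 1 from D1 1, w0]) (by
    simp only [map_mul, Equiv.Perm.mul_apply, w0, h2]; rw [show DL none = none from rfl, w1])
  have ns : ∀ x, x ≠ 1 → ∃ y, ρ w (some x) = some y := fun x hx => Option.ne_none_iff_exists'.1 fun e =>
    hx (Option.some.inj ((ρ w).injective (e.trans w0.symm)))
  obtain ⟨b, hb⟩ := ns y0 (by decide +kernel)
  obtain ⟨a, ha⟩ := ns y0⁻¹ (by decide +kernel)
  obtain ⟨j, hj, ej⟩ := st (w * ι b⁻¹ * w * ι y0 * w * ι a) (by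
    simp only [map_mul, Equiv.Perm.mul_apply, h1, LL_none, LL_some, w1, mul_one, hb, inv_mul_cancel, w0]) (by
    simp only [map_mul, Equiv.Perm.mul_apply, h1, LL_some, mul_one]
    rw [← ha, w2, LL_some, mul_inv_cancel, w0, LL_none, w1])
  have fc : ∀ u, cd (ρ w (dc (cd u))) = cd (ρ w u) := fun u => by rw [dc_cd]
  have I : Inv (fun n => cd (ρ w (dc n))) k := by
    refine ⟨fun n _ => cd_lt _, congrArg cd w0, fun n hn => by rw [dc_cd, w2, cd_dc n hn], fun n hn => ?_,
      fun m hm n hn e1 e2 => ?_, j, hj, fun n hn => ?_⟩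
    · conv_lhs => rw [← cd_dc n hn, ← cd_DL, fc, ← w2 (dc n)]
      rw [← cd_DL_pow, ← ek]; simp only [map_mul, Equiv.Perm.mul_apply, h2]
    · rw [← cd_dc m hm, ← cd_dc n hn, w3 (dc m) (dc n) (cd_inj (e1.trans (cd_dc m hm).symm))
        (cd_inj (e2.trans (cd_dc n hn).symm))]
    · have b1 : lk iTab (cd (ρ w (dc 1))) = (b⁻¹).c := by rw [show dc 1 = some y0 from rfl, hb]; rfl
      have a1 : cd (ρ w (dc 17)) = a.c := by rw [show dc 17 = some y0⁻¹ by decide +kernel, ha]; rfl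
      obtain ⟨u, rfl⟩ : ∃ u, n = cd u := ⟨_, (cd_dc n hn).symm⟩
      rw [b1, a1, ← cd_DL_pow, ← ej, show Lc 1 = Lc y0.c from rfl]
      simp only [← cd_LL, dc_cd, map_mul, Equiv.Perm.mul_apply, h1]
  obtain ⟨i, hi⟩ := I.main hk
  have hw : ∀ u, cd (ρ (w * (d ^ i)⁻¹) u) = g0c (cd u) := fun u => by
    obtain ⟨u, rfl⟩ := (DL ^ i).surjective u
    rw [cd_DL_pow, ← hi _ (cd_lt u), dc_cd, ← h2, ← map_pow, ← Equiv.Perm.mul_apply, ← map_mul, inv_mul_cancel_right]
  have mL : ∀ a, ρ (ι a) ∈ Gam := fun a => subset_closure (Or.inl ⟨a, h1 a⟩)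
  have mD : ρ d ∈ Gam := subset_closure (Or.inr (Or.inl h2))
  have mw : ρ w ∈ Gam := by
    have := mul_mem (subset_closure (Or.inr (Or.inr hw)) : _ ∈ Gam) (pow_mem mD i)
    rwa [← map_pow, ← map_mul, inv_mul_cancel_right] at this
  have mM : ∀ g, ρ g none = none → ρ g ∈ Gam := fun g e => by
    obtain ⟨x, i, -, rfl⟩ := h3 g e
    rw [map_mul, map_pow]; exact mul_mem (mL x) (pow_mem mD i)
  apply le_antisymm
  · rintro _ ⟨g, rfl⟩
    rcases e : ρ g none with _ | x
    · exact mM g e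
    · have := mM (w * ι x⁻¹ * g) (by
        simp only [map_mul, Equiv.Perm.mul_apply, e, h1, LL_some, inv_mul_cancel, w0])
      rwa [map_mul, map_mul, Subgroup.mul_mem_cancel_left _ (mul_mem mw (mL _))] at this
  · rw [Gam, closure_le]
    rintro σ (⟨a, rfl⟩ | rfl | hσ)
    · exact ⟨_, h1 a⟩
    · exact ⟨_, h2⟩
    · exact ⟨_, Equiv.ext fun u => cd_inj ((hw u).trans (hσ u).symm)⟩

theorem recog [IsSimpleGroup G] (ι : T0 →* G) (hι : Function.Injective ι)
    (d : G) (hd : ∀ x, d * ι x * d⁻¹ = ι (δ x)) (h15 : d ^ 15 = 1) (hc : Nat.card G = 62400)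
    (hTI : ∀ (g : G) (x y : T0), x ≠ 1 → g * ι x * g⁻¹ = ι y → g ∈ ι.range ⊔ Subgroup.zpowers d) :
    Nonempty (G ≃* Gam) := by
  classical
  have hdn : ∀ n x, d ^ n * ι x * (d ^ n)⁻¹ = ι (δ^[n] x) := fun n => by
    induction n with
    | zero => simp
    | succ n ih => intro x; rw [Function.iterate_succ_apply', ← hd, ← ih, pow_succ']; group
  have od : orderOf d = 15 := orderOf_eq_of_pow_and_pow_div_prime (by norm_num) h15 fun p hp hp' e => by
    have := hdn (15 / p) y0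
    rw [e, one_mul, inv_one, mul_one] at this
    have := hι this
    have l := Nat.le_of_dvd (by norm_num) hp'
    have l2 := hp.two_le
    interval_cases p <;> first | omega | (revert this; decide +kernel) | (norm_num at hp)
  have cT : Nat.card ι.range = 64 := by
    rw [← card_T0]; exact (Nat.card_congr (MonoidHom.ofInjective hι).toEquiv).symm
  have cD : Nat.card (zpowers d) = 15 := by rw [Nat.card_zpowers, od]
  have nT : zpowers d ≤ 𝐍(ι.range) := zpowers_le.2 (mem_normalizer_of_cj_le (cj_le_iff'.2 (by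
    rintro _ ⟨x, rfl⟩; exact ⟨_, (hd x).symm⟩)))
  have hi : ι.range ⊓ zpowers d = ⊥ := inf_eq_bot_of_coprime (by rw [cT, cD]; norm_num)
  set M := ι.range ⊔ zpowers d with hM
  have cM : Nat.card M = 960 := by rw [hM, card_sup_of_disjoint (Or.inl nT) hi, cT, cD]
  have cQ : Nat.card (G ⧸ M) = 65 := by
    have := Subgroup.card_eq_card_quotient_mul_card_subgroup M
    rw [hc, cM] at this
    omega
  have fixM : ∀ g : G, g • ((1 : G) : G ⧸ M) = ((1 : G) : G ⧸ M) ↔ g ∈ M := fun g => by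
    rw [← MulAction.mem_stabilizer_iff, MulAction.stabilizer_quotient]
  have iM : ∀ x, ι x ∈ M := fun x => mem_sup_left ⟨x, rfl⟩
  have dM : d ∈ M := mem_sup_right (mem_zpowers d)
  have free : ∀ q : G ⧸ M, q ≠ ((1 : G) : G ⧸ M) → ∀ x, ι x • q = q → x = 1 := by
    intro q hq x e
    by_contra x1
    obtain ⟨g, rfl⟩ := QuotientGroup.mk_surjective q
    have m : g⁻¹ * ι x * g ∈ M := by
      rw [mul_assoc]; exact QuotientGroup.eq.1 e.symm
    have m1 := pow_relIndex_mem_of_norm (sup_le le_normalizer nT) m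
    have r : ι.range.relIndex M = 15 := by
      have := card_mul_relIndex (le_sup_left : ι.range ≤ M)
      rw [← hM, cT, cM] at this
      omega
    have m4 : (g⁻¹ * ι x * g) ^ 16 = 1 := by
      rw [show g⁻¹ * ι x * g = g⁻¹ * ι x * g⁻¹⁻¹ by rw [inv_inv], conj_pow, ← map_pow,
        show x ^ 16 = (x * x * (x * x)) ^ 4 by rw [← sq, ← sq, ← pow_mul, ← pow_mul], sq_sq]; simp
    rw [r, eq_inv_of_mul_eq_one_left ((pow_succ _ 15).symm.trans m4), inv_mem_iff] at m1
    obtain ⟨y, hy⟩ := m1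
    exact hq (QuotientGroup.eq.2 (by rw [mul_one]; exact hTI g⁻¹ x y x1 (by rw [inv_inv, hy])))
  have ne : ∀ q : G ⧸ M, q ≠ ((1 : G) : G ⧸ M) → ∀ m ∈ M, m • q ≠ ((1 : G) : G ⧸ M) := fun q hq m hm e =>
    hq (by rw [← inv_smul_smul m q, e, (fixM _).2 (inv_mem hm)])
  have bij : ∀ q : G ⧸ M, q ≠ ((1 : G) : G ⧸ M) →
      Function.Bijective fun u : Option T0 => u.elim ((1 : G) : G ⧸ M) fun x => ι x • q := fun q hq => by
    rw [Nat.bijective_iff_injective_and_card]
    refine ⟨?_, by rw [cQ, Finite.card_option, card_T0]⟩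
    rintro (_ | x) (_ | y) e
    · rfl
    · exact absurd e.symm (ne q hq _ (iM y))
    · exact absurd e (ne q hq _ (iM x))
    · have := free q hq (y⁻¹ * x) (by rw [map_mul, mul_smul, map_inv, inv_smul_eq_iff]; exact e)
      rw [inv_mul_eq_one.1 this]
  obtain ⟨p, hp, dp⟩ : ∃ p : G ⧸ M, p ≠ ((1 : G) : G ⧸ M) ∧ d • p = p := by
    haveI : Nontrivial (G ⧸ M) := Finite.one_lt_card_iff_nontrivial.1 (by omega)
    obtain ⟨q, hq⟩ := exists_ne ((1 : G) : G ⧸ M)
    obtain ⟨_ | x, e⟩ := (bij q hq).2 (d • q)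
    · exact absurd e.symm (ne q hq d dM)
    · obtain ⟨y, hy⟩ := (by decide +kernel : ∀ x, ∃ y, δ y * x = y) x
      refine ⟨ι y • q, ne q hq _ (iM y), ?_⟩
      rw [← mul_smul, ← inv_mul_cancel_right (d * ι y) d, hd, mul_smul, ← (show ι x • q = d • q from e),
        ← mul_smul, ← map_mul, hy]
  let e := Equiv.ofBijective _ (bij p hp)
  let ρ : G →* Equiv.Perm (Option T0) := (Equiv.permCongrHom e.symm).toMonoidHom.comp (MulAction.toPermHom G (G ⧸ M))
  have hρ : ∀ g u v, ρ g u = v ↔ g • e u = e v := fun g u v => e.symm_apply_eq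
  have h3 : ∀ g, ρ g none = none ↔ g ∈ M := fun g => (hρ g none none).trans (fixM g)
  have h4 : ∃ g, ρ g none = some 1 := by
    obtain ⟨g, hg⟩ := QuotientGroup.mk_surjective (e (some 1))
    exact ⟨g, (hρ _ _ _).2 (by rw [← hg]; exact congrArg QuotientGroup.mk (mul_one g))⟩
  have hr := recog_of_rep (ι := ι) (d := d) ρ (fun a => Equiv.ext fun u => (hρ _ _ _).2 (by
      cases u with
      | none => exact (fixM _).2 (iM a)
      | some x => show ι a • ι x • p = ι (a * x) • p; rw [map_mul, mul_smul]))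
    (Equiv.ext fun u => (hρ _ _ _).2 (by
      cases u with
      | none => exact (fixM _).2 dM
      | some x => show d • ι x • p = ι (δ x) • p; rw [← hd, mul_smul, mul_smul, inv_smul_eq_iff.2 dp.symm]))
    (fun g hg => by
      obtain ⟨_, ⟨x, rfl⟩, q, hq, rfl⟩ := (mem_sup_of_norm_right nT).1 ((h3 g).1 hg)
      obtain ⟨i, rfl⟩ := (mem_powers_iff_mem_zpowers).2 hq
      exact ⟨x, i % 15, Nat.mod_lt _ (by norm_num), by rw [← od, pow_mod_orderOf]⟩) h4
  have inj : Function.Injective ρ := by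
    rcases ρ.normal_ker.eq_bot_or_eq_top with k | k
    · exact (MonoidHom.ker_eq_bot_iff ρ).1 k
    · obtain ⟨g, hg⟩ := h4
      rw [show ρ g = 1 from (k ▸ mem_top g : g ∈ ρ.ker)] at hg
      exact absurd hg (by simp)
  exact ⟨hr ▸ MonoidHom.ofInjective inj⟩

end CA.Ly
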