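/-
Lyons' theorem: the endgame in the case of an automizer of order 15.
-/
import Cfsg.Agent.Lib.Ly.Case15
import Cfsg.Agent.Lib.Ly.Rec

set_option autoImplicit false
set_option linter.unusedSectionVars false

namespace CA.Ly

open Cfsg Subgroup CA CA.Ch CA.Blk Finset
open scoped ComplexConjugate

variable {G : Type*} [Group G] [Finite G]

theorem card_conj_eq [Fintype G] [DecidableEq G] {t s : G} (h : IsConj t s) :
    (univ.filter fun y => y * t * y⁻¹ = s).card = Nat.card 𝐂[t] := by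
  obtain ⟨g, rfl⟩ := isConj_iff.1 h
  rw [← Fintype.card_subtype, ← Nat.card_eq_fintype_card]
  refine Nat.card_congr ((Equiv.mulLeft g⁻¹).subtypeEquiv fun y => ?_)
  rw [mem_centralizer_singleton_iff, Equiv.coe_mulLeft]
  exact ⟨fun e => by rw [← mul_inv_eq_iff_eq_mul, mul_inv_rev, inv_inv, show g⁻¹ * y * t * (y⁻¹ * g) =
    g⁻¹ * (y * t * y⁻¹) * g by group, e]; group, fun e => by
      rw [show y * t * y⁻¹ = g * (g⁻¹ * y * t) * y⁻¹ by group, e]; group⟩

namespace S15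
variable {ι : T0 →* G} {d : G} (h : S15 ι d)
include h

theorem O_bot [IsSimpleGroup G] : piCoreOf {2}ᶜ 𝐂[ι z0] = ⊥ := by
  classical
  haveI := Fintype.ofFinite G
  obtain ⟨-, χ, hχ, e⟩ := h.main
  obtain ⟨π, -, h2, h3⟩ := h.exists_pi
  have hi := irr_of_B0 hχ
  have n1 : χ ≠ 1 := by rintro rfl; norm_num at e
  have c1 := hi.isCF.of_isConj (h.conj_z (z := z1) (by decide +kernel) z_ne.2.1)
  have c2 := hi.isCF.of_isConj (h.conj_z (z := z2) (by decide +kernel) z_ne.2.2.1)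
  have m2 : ι z0 * ι z1 = ι z2 := by rw [← map_mul, z_mul.1]
  have s1 : ι z1 * ι z1 = 1 := by rw [← map_mul, ← map_one ι]; exact congrArg ι (by decide +kernel)
  have key : ∀ g, χ (ι z0 * g) = χ (ι z0) → χ (ι z1 * g) = χ (ι z0) → χ (ι z2 * g) = χ (ι z0) → g = 1 :=
    fun g a b c => eq_one_of_apply hi n1 (by
      have := sum_four hi (a := ι z0) (b := ι z1) (by rw [← map_mul, z0_sq, map_one]) s1
        (mem_centralizer_singleton_iff.1 (mem1 z1)) (by rw [m2, ← c1, ← c2]; linear_combination e) g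
      rw [m2, a, b, c] at this
      linear_combination this - e)
  have nO : ∀ x, ι x ∈ 𝐍(piCoreOf {2}ᶜ 𝐂[ι z0]) := fun x => piCoreOf_norm _ _ (mem1 x)
  have cen : ∀ k ∈ piCoreOf {2}ᶜ 𝐂[ι z0], k * ι z1 = ι z1 * k := fun k hk => by
    have hk0 := mem_centralizer_singleton_iff.1 (piCoreOf_le _ _ hk)
    have := key (ι z1 * k * (ι z1)⁻¹ * k⁻¹) (h.app_O hχ (mul_mem (conj_mem_of_mem_normalizer (nO z1) hk) (inv_mem hk)))
      (by rw [c1, ← hi.isCF.conj (ι z1) k, ← mul_assoc, ← mul_assoc, ← mul_assoc, s1, one_mul, Inv.inv_eq_self s1])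
      (by rw [c2, ← hi.isCF.conj (ι z2) k, ← m2, ← mul_assoc k, hk0, Inv.inv_eq_self s1]
          simp only [mul_assoc, Inv.mul_mul_cancel s1])
    rw [mul_inv_eq_one, mul_inv_eq_iff_eq_mul] at this
    exact this.symm
  have sh : ∀ k ∈ piCoreOf {2}ᶜ 𝐂[ι z0], d⁻¹ * k * d ∈ piCoreOf {2}ᶜ 𝐂[ι z0] := fun k hk => by
    have a1 : d⁻¹ * k * d ∈ 𝐂[ι z0] := by
      have := cen k hk
      rw [← δ_z.1, ← h.hd] at this
      rw [mem_centralizer_singleton_iff, show d⁻¹ * k * d * ι z0 = d⁻¹ * (k * (d * ι z0 * d⁻¹)) * d by group, this]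
      group
    have od : ∀ w ∈ piCoreOf {2}ᶜ 𝐂[ι z0], ∀ g : 𝐂[ι z0], (g : G) = d⁻¹ * w * d → π g ^ 5 = 1 := fun w hw g e =>
      H0_odd.1 (PiElt.map (piElt_coe.1 (by
        rw [e]; simpa using ((piCoreOf_piGrp _ _).piElt hw).map (MulAut.conj d⁻¹).toMonoidHom)) π)
    refine (h2 ⟨_, a1⟩).1 (H0_cen _ (fun y => ?_) (od k hk _ rfl))
    rw [← h3 ⟨ι y, mem1 y⟩ y 0 (by simp), ← map_inv, ← map_inv, ← map_mul, ← map_mul, ← map_mul]
    refine od _ (mul_mem hk (conj_mem_of_mem_normalizer (nO (δ y)) (inv_mem hk))) _ ?_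
    rw [← h.hd]
    simp only [Subgroup.coe_mul, Subgroup.coe_inv]
    group
  refine eq_bot_iff.2 fun k hk => mem_bot.2 (key k (h.app_O hχ hk) ?_ ?_)
  · rw [← h.app_O hχ (sh k hk), ← hi.isCF.conj (ι z0 * _) d, ← δ_z.1, ← h.hd]
    congr 1; group
  · rw [← h.app_O hχ (sh _ (sh k hk)), ← hi.isCF.conj (ι z0 * _) (d * d), ← δ_z.2.1, ← h.hd, ← δ_z.1, ← h.hd]
    congr 1; group

theorem card_G [IsSimpleGroup G] : Nat.card G = 62400 := by
  classical
  haveI := Fintype.ofFinite G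
  obtain ⟨π, h1, h2, h3⟩ := h.exists_pi
  have hπ : Function.Injective π := (injective_iff_map_eq_one π).2 fun g e => by
    have := (h2 g).1 e
    rw [h.O_bot, mem_bot] at this
    exact Subtype.ext this
  have tt : ι z0 * ι z0 = 1 := by rw [← map_mul, z0_sq, map_one]
  have c1 := h.conj_z (z := z1) (by decide +kernel) z_ne.2.1
  have c2 := h.conj_z (z := z2) (by decide +kernel) z_ne.2.2.1
  have : NN (ι z0) = 320 + 320 := by
    rw [← card_H0, ← Nat.card_congr (Equiv.ofBijective π ⟨hπ, h1⟩)]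
    conv_rhs => rw [← card_conj_eq c2]; enter [1]; rw [card_conj_eq c2, ← card_conj_eq c1]
    rw [← card_union_of_disjoint (disjoint_filter.2 fun y _ a b => z_ne.2.2.2.2.2 (h.inj (a.symm.trans b))),
      ← filter_or, NN]
    congr 1
    refine filter_congr fun y _ => ⟨fun e => ?_, fun e => ?_⟩
    · have hu := Inv.conj_mul_self tt y
      obtain ⟨k, hk, e⟩ := h.prod_conj hu tt e
      rw [h.O_bot, mem_bot] at hk
      rw [hk, mul_one] at e
      have n1 : y * ι z0 * y⁻¹ ≠ 1 := fun c => z_ne.1 (h.inj (by simpa using c))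
      generalize y * ι z0 * y⁻¹ = u at *
      obtain ⟨c, hc⟩ := isConj_iff.1 e.symm
      have a1 : u ∈ 𝐂[ι z0] := mem_centralizer_singleton_iff.2 ((Inv.commute_iff_sq hu tt).2 (by
        rw [← hc, sq, Inv.conj_mul_self tt]))
      have b1 := H0_inv (π ⟨u, a1⟩) (by rw [← map_mul, ← map_one π]; congr 1; exact Subtype.ext hu)
      have b2 : u = ι (π ⟨u, a1⟩).1 := congrArg Subtype.val
        (hπ (b1.2.trans (h3 ⟨_, mem1 _⟩ _ 0 (by simp)).symm))
      rcases (sq_eq_one_iff _).1 b1.1 with e | e | e | e <;> rw [e] at b2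
      · exact absurd (b2.trans (map_one ι)) n1
      · rw [b2, tt] at hc
        exact absurd (h.inj (by simpa using hc)) z_ne.1
      · exact .inl b2
      · exact .inr b2
    · rcases e with e | e <;> rw [e, ← map_mul, Su.cst] <;>
        exact (h.conj_z (by decide +kernel) (by decide +kernel)).symm
  have := h.main.1
  omega

theorem recog15 [IsSimpleGroup G] : Nonempty (G ≃* Gam) := by
  have hO := h.O_bot
  refine recog ι h.inj d h.hd (mem_bot.1 (hO ▸ h.d15)) h.card_G ?_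
  suffices ∀ (g : G) (x y : T0), x ≠ 1 → x * x = 1 → g * ι x * g⁻¹ = ι y → g ∈ ι.range ⊔ zpowers d by
    intro g x y hx e
    by_cases h1 : x * x = 1
    · exact this g x y hx h1 e
    · exact this g (x * x) (y * y) h1 (sq_sq x) (by rw [map_mul, map_mul, ← e, conj_mul])
  intro g x y hx h1 e
  obtain ⟨i, -, rfl⟩ := z_orb x h1 hx
  obtain ⟨j, -, rfl⟩ := z_orb y (h.sq_of_isConj h1 (isConj_iff.2 ⟨g, e⟩)) fun c => hx (h.inj (by simpa [c] using e))
  rw [← h.conj_pow, ← h.conj_pow] at e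
  obtain ⟨k, hk, x, a, -, e⟩ := h.cz ((d ^ j)⁻¹ * g * d ^ i) (by
    rw [mem_centralizer_singleton_iff, show (d ^ j)⁻¹ * g * d ^ i * ι z0 =
      (d ^ j)⁻¹ * (g * (d ^ i * ι z0 * (d ^ i)⁻¹) * g⁻¹) * g * d ^ i by group, e]
    group)
  rw [hO, mem_bot] at hk
  have hd : ∀ n : ℕ, d ^ n ∈ ι.range ⊔ zpowers d := fun n => mem_sup_right (pow_mem (mem_zpowers d) n)
  rw [show g = d ^ j * ((d ^ j)⁻¹ * g * d ^ i) * (d ^ i)⁻¹ by group, e, hk, one_mul]
  exact mul_mem (mul_mem (hd j) (mul_mem (mem_sup_left ⟨x, rfl⟩) (hd _))) (inv_mem (hd i))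

end S15
end CA.Ly
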