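/-
Lyons' theorem: action of normalizing elements on `T/Z`.
-/
import Cfsg.Agent.Lib.Ly.Defs
import Cfsg.Agent.Lib.Golay.Bits

set_option autoImplicit false
set_option linter.unusedSectionVars false

namespace CA.Ly.Au

open Cfsg Subgroup CA CA.Gol CA.Blk

/-- `F₂`-linear map given by the images of the basis -/
def lin (a b c d u : ℕ) : ℕ := force u fun u =>
  Nat.xor (Nat.xor (Nat.xor (Nat.mul (Nat.mod u 2) a) (Nat.mul (Nat.mod (Nat.div u 2) 2) b))
    (Nat.mul (Nat.mod (Nat.div u 4) 2) c)) (Nat.mul (Nat.mod (Nat.div u 8) 2) d)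
def Qc (u : ℕ) : ℕ := fld 2 0x799dbfa4 u
def pT : ℕ := 0xe4d2f194b2c16472a1543281
def Dq (u : ℕ) : ℕ := force u fun u => Nat.mod (lk dTab u) 16
def chk (L : ℕ → ℕ) : Bool :=
  anyLt (fun k => !(Nat.beq (Qc (L (fld 4 pT (Nat.mul 2 k)))) (Qc (L (fld 4 pT (Nat.succ (Nat.mul 2 k))))))) 12 ||
  anyLt (fun u => Nat.beq (L (Nat.succ u)) 0) 15 ||
  anyLt (fun i => allLt (fun u => Nat.beq (L u) (Dq^[i] u)) 16) 15 ||
  (!(allLt (fun u => Nat.beq (L^[15] u) u) 16) && allLt (fun u => Nat.beq (L^[60] u) u) 16)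

theorem chk_all : allLt (fun a => allLt (fun b => allLt (fun c => allLt (fun d =>
    chk (lin a b c d)) 16) 16) 16) 16 = true := by decide +kernel

/-- class modulo `Z` -/
def q (x : T0) : ℕ := x.c % 16

theorem q_lt (x : T0) : q x < 16 := Nat.mod_lt _ (by decide)
theorem q_mul : ∀ x y : T0, q (x * y) = q x ^^^ q y := by decide +kernel
theorem q_el : ∀ u < 16, q (el u) = u := by decide +kernel
theorem q_zero : ∀ z : T0, q z = 0 ↔ z * z = 1 := by decide +kernel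
theorem q_inv : ∀ z : T0, q z⁻¹ = q z := by decide +kernel
theorem q_mul_z (x z : T0) (h : z * z = 1) : q (x * z) = q x := by rw [q_mul, (q_zero z).2 h, Nat.xor_zero]
theorem q_eq_iff (x y : T0) : q x = q y ↔ ∃ z, z * z = 1 ∧ x = y * z :=
  ⟨fun h => ⟨y⁻¹ * x, (q_zero _).1 (by rw [q_mul, q_inv, h, Nat.xor_self]), by group⟩,
    fun ⟨z, hz, e⟩ => e ▸ q_mul_z y z hz⟩
theorem sq_c : ∀ x : T0, (x * x).c = 16 * Qc (q x) := by decide +kernel
theorem sq_eq_iff (x y : T0) : x * x = y * y ↔ Qc (q x) = Qc (q y) :=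
  ⟨fun h => by have := congrArg T0.c h; rw [sq_c, sq_c] at this; omega,
    fun h => T0.ext (by rw [sq_c, sq_c, h])⟩
theorem word : ∀ x : T0, ∃ w, x = el (q x % 2 * 1) * el (q x / 2 % 2 * 2) * el (q x / 4 % 2 * 4) *
    el (q x / 8 % 2 * 8) * (w * w) := by decide +kernel
theorem q_δ : ∀ i < 15, ∀ x : T0, q (δ^[i] x) = Dq^[i] (q x) := by decide +kernel
theorem pT_sq : ∀ k < 12, fld 4 pT (Nat.mul 2 k) < 16 ∧ fld 4 pT (Nat.succ (Nat.mul 2 k)) < 16 ∧
    el (fld 4 pT (Nat.mul 2 k)) * el (fld 4 pT (Nat.mul 2 k)) =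
      el (fld 4 pT (Nat.succ (Nat.mul 2 k))) * el (fld 4 pT (Nat.succ (Nat.mul 2 k))) := by decide +kernel

theorem lin_of {g : T0 → ℕ} (h : ∀ x y, g (x * y) = g x ^^^ g y) (x : T0) :
    g x = lin (g (el 1)) (g (el 2)) (g (el 4)) (g (el 8)) (q x) := by
  have h1 : g (el 0) = 0 := by
    have := h 1 1
    rw [mul_one, Nat.xor_self] at this
    exact this
  have h2 : ∀ u e, g (el (u % 2 * e)) = u % 2 * g (el e) := fun u e => by
    rcases Nat.mod_two_eq_zero_or_one u with h | h <;> simp [h, h1]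
  obtain ⟨w, hw⟩ := word x
  conv_lhs => rw [hw]
  rw [h, h, h, h, h w w, Nat.xor_self, Nat.xor_zero, h2, h2, h2, h2]
  simp only [lin, force_eq]
  rfl

theorem lin_odd (f : T0 → T0) (h2 : ∀ x y, q (f (x * y)) = q (f x) ^^^ q (f y))
    (h3 : ∀ x y, x * x = y * y → f x * f x = f y * f y) {m : ℕ} (hm : Odd m)
    (h4 : ∀ x, q (f^[m] x) = q x) : ∃ i < 15, ∀ x, q (f x) = q (δ^[i] x) := by
  have hl := lin_of (g := fun x => q (f x)) h2
  have hc := allLt_iff.1 (allLt_iff.1 (allLt_iff.1 (allLt_iff.1 chk_all _ (q_lt (f (el 1)))) _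
    (q_lt (f (el 2)))) _ (q_lt (f (el 4)))) _ (q_lt (f (el 8)))
  beta_reduce at hl
  generalize lin (q (f (el 1))) (q (f (el 2))) (q (f (el 4))) (q (f (el 8))) = L at hl hc
  have hi : ∀ k x, q (f^[k] x) = L^[k] (q x) := fun k => by
    induction k with
    | zero => exact fun x => rfl
    | succ k ih => intro x; rw [Function.iterate_succ_apply', Function.iterate_succ_apply', hl, ih]
  have hp : ∀ u < 16, L^[m] u = u := fun u hu => by rw [← q_el u hu, ← hi, h4]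
  simp only [chk, Bool.or_eq_true, Bool.and_eq_true, anyLt_iff, allLt_iff, beq_iff, Bool.not_eq_true',
    beq_false_iff] at hc
  rcases hc with ((⟨k, hk, hc⟩ | ⟨u, hu, hc⟩) | ⟨i, hi, hc⟩) | ⟨h15, h60⟩
  · obtain ⟨a, b, c⟩ := pT_sq k hk
    have := (sq_eq_iff _ _).1 (h3 _ _ c)
    rw [hl, hl, q_el _ a, q_el _ b] at this
    exact absurd this hc
  · exfalso
    have h0 : L 0 = 0 := by
      have := h2 1 1
      rw [mul_one, Nat.xor_self, hl] at this
      exact this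
    obtain ⟨r, rfl⟩ := hm
    have := hp (Nat.succ u) (by omega)
    rw [Function.iterate_add_apply, Function.iterate_one, hc, Function.iterate_fixed h0] at this
    omega
  · exact ⟨i, hi, fun x => by rw [hl, hc _ (q_lt x), q_δ i hi]⟩
  · exfalso
    rw [← Bool.not_eq_true, allLt_iff] at h15
    refine h15 fun u hu => beq_iff.2 ?_
    have := Function.IsPeriodicPt.gcd (f := L) (hp u hu) (h60 u hu)
    refine this.trans_dvd (Nat.Coprime.dvd_of_dvd_mul_left (m := 4) (n := 15) ?_ (Nat.gcd_dvd_right m 60))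
    exact Nat.Coprime.of_dvd_left (Nat.gcd_dvd_left m 60)
      (Nat.Coprime.pow_right 2 ((Nat.coprime_two_right).2 hm))

theorem δ_mul (i : ℕ) (x y : T0) : δ^[i] (x * y) = δ^[i] x * δ^[i] y := by
  induction i with
  | zero => rfl
  | succ i ih => simp only [Function.iterate_succ_apply', ih, map_mul]

theorem δ_one (i : ℕ) : δ^[i] 1 = 1 := Function.iterate_fixed (map_one δ) i

theorem δ_mod (i : ℕ) (x : T0) : δ^[i % 15] x = δ^[i] x :=
  Function.IsPeriodicPt.iterate_mod_apply (δ_pow x) i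

theorem zz (a b z : T0) (h : z * z = 1) : a * z * (b * z) = a * b := by
  rw [mul_assoc, ← mul_assoc z, cen_of_sq z h, mul_assoc, h, mul_one]
theorem mul_z_sq (x z : T0) (h : z * z = 1) : x * z * (x * z) = x * x := zz x x z h
theorem z_sq (z w : T0) (h : z * z = 1) (h' : w * w = 1) : z * w * (z * w) = 1 := (mul_z_sq z w h').trans h
theorem exists_sq : ∀ z : T0, z * z = 1 → ∃ w, z = w * w := by decide +kernel
theorem conj_eq (y x : T0) : ∃ z, z * z = 1 ∧ y * x * y⁻¹ = x * z :=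
  (q_eq_iff _ _).1 (by rw [q_mul, q_mul, q_inv, Nat.xor_comm (q y), Nat.xor_xor_cancel_right])
theorem Dq_uniq : ∀ i < 15, ∀ j < 15, ∀ u < 16, u ≠ 0 → Dq^[i] u = Dq^[j] u → i = j := by decide +kernel
theorem δ_uniq {i j : ℕ} (hi : i < 15) (hj : j < 15) {x : T0} (hx : x * x ≠ 1)
    (h : q (δ^[i] x) = q (δ^[j] x)) : i = j :=
  Dq_uniq i hi j hj _ (q_lt x) (mt (q_zero x).1 hx) (by rwa [← q_δ i hi, ← q_δ j hj])
theorem δ_fix : ∀ i < 15, ∀ z : T0, z * z = 1 → z ≠ 1 → δ^[i] z = z → 3 ∣ i := by decide +kernel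
theorem δ_three : ∀ i < 15, 3 ∣ i → ∀ z : T0, z * z = 1 → δ^[i] z = z := by decide +kernel

theorem δ_z_sq (i : ℕ) {z : T0} (h : z * z = 1) : δ^[i] z * δ^[i] z = 1 := by rw [← δ_mul, h, δ_one]

/-! ### the calculus of `Act` -/

variable {G : Type*} [Group G] {ε : T0 →* G} {n m : G} {i j : ℕ}

theorem act_mod : Act ε n (i % 15) ↔ Act ε n i := by simp only [Act, δ_mod]

theorem act_congr (h : Act ε n i) (e : i % 15 = j % 15) : Act ε n j := by
  rw [← act_mod, ← e, act_mod]; exact h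

theorem act_sq (h : Act ε n i) {z : T0} (hz : z * z = 1) : n * ε z * n⁻¹ = ε (δ^[i] z) := by
  obtain ⟨w, rfl⟩ := exists_sq z hz
  obtain ⟨z, hz, e⟩ := h w
  rw [δ_mul, ← mul_z_sq (δ^[i] w) z hz, map_mul ε (δ^[i] w * z), ← e, map_mul]
  group

theorem act_mul (h : Act ε n i) (h' : Act ε m j) : Act ε (n * m) (i + j) := fun x => by
  obtain ⟨z, hz, e⟩ := h' x
  obtain ⟨w, hw, e'⟩ := h (δ^[j] x)
  refine ⟨w * δ^[i] z, z_sq _ _ hw (δ_z_sq i hz), ?_⟩
  rw [← mul_assoc (δ^[i + j] x), map_mul, Function.iterate_add_apply, ← e', ← act_sq h hz]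
  calc n * m * ε x * (n * m)⁻¹ = n * (m * ε x * m⁻¹) * n⁻¹ := by group
    _ = _ := by rw [e, map_mul]; group

theorem act_range (y : T0) : Act ε (ε y) 0 := fun x => by
  obtain ⟨z, hz, e⟩ := conj_eq y x
  exact ⟨z, hz, by rw [← map_inv, ← map_mul, ← map_mul, e]; rfl⟩

theorem act_one : Act ε 1 0 := by simpa using act_range (ε := ε) 1

theorem act_pow (h : Act ε n i) (k : ℕ) : Act ε (n ^ k) (i * k) := by
  induction k with
  | zero => simpa using act_one
  | succ k ih => rw [pow_succ, Nat.mul_succ]; exact act_mul ih h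

theorem q_eq_of (hk : ∀ x, ε x = 1 → x * x = 1) {x y : T0} (h : ε x = ε y) : q x = q y :=
  (q_eq_iff x y).2 ⟨y⁻¹ * x, hk _ (by rw [map_mul, map_inv, h, inv_mul_cancel]), by group⟩

/-- a fixed point outside `Z` forces trivial action -/
theorem act_uniq' (hk : ∀ x, ε x = 1 → x * x = 1) (h : Act ε n i) {x z : T0} (hx : x * x ≠ 1) (hz : z * z = 1)
    (e : n * ε x * n⁻¹ = ε (δ^[j] x * z)) : i % 15 = j % 15 := by
  obtain ⟨w, hw, e'⟩ := h x
  have := q_eq_of hk (e'.symm.trans e)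
  rw [q_mul_z _ _ hw, q_mul_z _ _ hz, ← δ_mod i, ← δ_mod j] at this
  exact δ_uniq (Nat.mod_lt _ (by decide)) (Nat.mod_lt _ (by decide)) hx this

theorem act_uniq (hk : ∀ x, ε x = 1 → x * x = 1) (h : Act ε n i) (h' : Act ε n j) : i % 15 = j % 15 := by
  obtain ⟨z, hz, e⟩ := h' y0
  exact act_uniq' hk h (by rw [y0_sq]; exact z_ne.1) hz e

theorem act_fix (hk : ∀ x, ε x = 1 → x * x = 1) (h : Act ε n i) {x : T0} (hx : x * x ≠ 1)
    (e : n * ε x * n⁻¹ = ε x) : Act ε n 0 :=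
  act_congr h (act_uniq' hk h hx (mul_one 1) (by simpa using e))

variable [Finite G]

theorem act_norm (h : Act ε n i) : n ∈ 𝐍(ε.range) :=
  mem_normalizer_of_cj_le (cj_le_iff'.2 (by
    rintro _ ⟨x, rfl⟩
    obtain ⟨z, -, e⟩ := h x
    exact ⟨_, e.symm⟩))

theorem exists_fun (hn : n ∈ 𝐍(ε.range)) : ∃ f : T0 → T0, ∀ x, n * ε x * n⁻¹ = ε (f x) := by
  have : ∀ x, ∃ y, n * ε x * n⁻¹ = ε y := fun x => by
    obtain ⟨y, hy⟩ := conj_mem_of_mem_normalizer hn (⟨x, rfl⟩ : ε x ∈ ε.range)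
    exact ⟨y, hy.symm⟩
  choose f hf using this
  exact ⟨f, hf⟩

/-- compatibility of conjugation with the squaring map -/
def QC (ε : T0 →* G) : Prop := ∀ n ∈ 𝐍(ε.range), ∀ x y x' y', n * ε x * n⁻¹ = ε x' → n * ε y * n⁻¹ = ε y' →
  x * x = y * y → x' * x' = y' * y'

theorem qc_of_inj (h : Function.Injective ε) : QC ε := fun n _ x y x' y' e e' e'' => h (by
  rw [map_mul, map_mul, ← e, ← e']
  calc n * ε x * n⁻¹ * (n * ε x * n⁻¹) = n * ε (x * x) * n⁻¹ := by rw [map_mul]; group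
    _ = _ := by rw [e'', map_mul]; group)

theorem act_of_odd (hk : ∀ x, ε x = 1 → x * x = 1) (hQ : QC ε) (hn : n ∈ 𝐍(ε.range))
    (ho : Odd (orderOf n)) : ∃ i < 15, Act ε n i := by
  obtain ⟨f, hf⟩ := exists_fun hn
  have hi : ∀ k x, n ^ k * ε x * (n ^ k)⁻¹ = ε (f^[k] x) := fun k => by
    induction k with
    | zero => simp
    | succ k ih => intro x; rw [Function.iterate_succ_apply', ← hf, ← ih]; group
  obtain ⟨i, hi, h⟩ := lin_odd f (fun x y => by
      rw [← q_mul]; refine q_eq_of hk ?_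
      rw [map_mul, ← hf, ← hf, ← hf, map_mul]; group)
    (fun x y => hQ n hn x y _ _ (hf x) (hf y)) ho
    (fun x => q_eq_of hk (by rw [← hi, pow_orderOf_eq_one]; simp))
  refine ⟨i, hi, fun x => ?_⟩
  obtain ⟨z, hz, e⟩ := (q_eq_iff _ _).1 (h x)
  exact ⟨z, hz, by rw [hf, e]⟩

theorem two_part_mem (hS : SylowIn 2 ε.range ⊤) (hn : n ∈ 𝐍(ε.range)) : ∃ x, constt {2} n = ε x := by
  obtain ⟨x, hx⟩ := hS.mem_of_mem_norm (constt_mem {2} hn) (mem_top _) (constt_piElt _ _)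
  exact ⟨x, hx.symm⟩

theorem act_of_norm (hk : ∀ x, ε x = 1 → x * x = 1) (hQ : QC ε) (hS : SylowIn 2 ε.range ⊤)
    (hn : n ∈ 𝐍(ε.range)) : ∃ i < 15, Act ε n i := by
  obtain ⟨i, hi, h⟩ := act_of_odd hk hQ (constt_mem {2}ᶜ hn) (piElt_two_compl.1 (constt_piElt _ _))
  obtain ⟨x, hx⟩ := two_part_mem hS hn
  refine ⟨i, hi, ?_⟩
  have := act_mul (act_range x) h
  rwa [← hx, constt_mul_compl, zero_add] at this

/-- the odd part acts in the same way -/
theorem act_odd_part (hS : SylowIn 2 ε.range ⊤) (h : Act ε n i) : Act ε (constt {2}ᶜ n) i := by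
  obtain ⟨x, hx⟩ := two_part_mem hS (act_norm h)
  have := act_mul (act_range x⁻¹) h
  rwa [map_inv, ← hx, zero_add, ← eq_inv_mul_iff_mul_eq.2 (constt_mul_compl {2} n)] at this

theorem cent_of_act_zero (h : Act ε n 0) (ho : Odd (orderOf n)) : n ∈ 𝐂(ε.range) := by
  have h2 : n ^ 2 ∈ 𝐂(ε.range) := mem_cent_iff'.2 (by
    rintro _ ⟨x, rfl⟩
    obtain ⟨z, hz, e⟩ := h x
    have e' := act_sq h hz
    simp only [Function.iterate_zero, id_eq] at e e'
    rw [← mul_inv_eq_iff_eq_mul]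
    calc n ^ 2 * ε x * (n ^ 2)⁻¹ = n * (n * ε x * n⁻¹) * n⁻¹ := by rw [sq]; group
      _ = n * ε (x * z) * n⁻¹ := by rw [e]
      _ = n * ε x * n⁻¹ * (n * ε z * n⁻¹) := by rw [map_mul]; group
      _ = _ := by rw [e, e', ← map_mul, mul_assoc, hz, mul_one])
  obtain ⟨r, hr⟩ := ho
  have := pow_mem h2 (r + 1)
  rwa [← pow_mul, show 2 * (r + 1) = orderOf n + 1 by omega, pow_succ, pow_orderOf_eq_one, one_mul] at this

/-! ### central automorphisms -/

/-- automorphisms trivial modulo `Z` -/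
def KK : Subgroup (MulAut T0) where
  carrier := {κ | ∀ x, q (κ x) = q x}
  one_mem' := fun _ => rfl
  mul_mem' := fun ha hb x => (ha _).trans (hb x)
  inv_mem' := fun {a} ha x => by rw [← ha]; simp

theorem kk_fix {κ : MulAut T0} (h : κ ∈ KK) {z : T0} (hz : z * z = 1) : κ z = z := by
  obtain ⟨w, rfl⟩ := exists_sq z hz
  obtain ⟨z, hz, e⟩ := (q_eq_iff _ _).1 (h w)
  rw [map_mul, e, mul_z_sq _ _ hz]

theorem gen3 : ∀ x : T0, ∃ y, q x = q (δ^[3] y * y) := by decide +kernel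
theorem q_δ_inj : ∀ x y : T0, q (δ x) = q (δ y) ↔ q x = q y := by decide +kernel

theorem kk_comm {κ : MulAut T0} (h : κ ∈ KK) (hc : ∀ x, κ (δ x) = δ (κ x)) : κ = 1 := by
  ext x
  obtain ⟨y, hy⟩ := gen3 x
  obtain ⟨z, hz, rfl⟩ := (q_eq_iff _ _).1 hy
  obtain ⟨w, hw, e⟩ := (q_eq_iff _ _).1 (h y)
  have : κ (δ^[3] y) = δ^[3] y * w := by
    rw [show κ (δ^[3] y) = δ^[3] (κ y) by simp only [Function.iterate_succ_apply', hc]; rfl, e, δ_mul,
      δ_three 3 (by decide) (by decide) w hw]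
  rw [map_mul, map_mul, this, e, kk_fix h hz, zz _ _ _ hw]
  rfl

theorem aut2 (α : T0 ≃* T0) (h : ∀ x, q (α x) = q (δ x)) :
    ∃ c : T0 ≃* T0, ∀ x, α (c x) = c (δ x) := by
  let D : MulAut T0 := δ
  let F : KK → KK := fun c => ⟨D⁻¹ * c * D * (c : MulAut T0)⁻¹, mul_mem (fun x => by
    rw [← q_δ_inj]
    exact (congrArg q (δ.apply_symm_apply _)).trans (c.2 _)) (inv_mem c.2)⟩
  have hF : Function.Injective F := fun c c' e => by
    have e : D⁻¹ * c * D * (c : MulAut T0)⁻¹ = D⁻¹ * c' * D * (c' : MulAut T0)⁻¹ := congrArg Subtype.val e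
    have e2 : (c' : MulAut T0)⁻¹ * c * D = D * ((c' : MulAut T0)⁻¹ * c) := by
      calc (c' : MulAut T0)⁻¹ * c * D = (c' : MulAut T0)⁻¹ * D * (D⁻¹ * c * D * (c : MulAut T0)⁻¹) * c := by group
        _ = _ := by rw [e]; group
    have := kk_comm (mul_mem (inv_mem c'.2) c.2) fun x => DFunLike.congr_fun e2 x
    exact Subtype.ext (inv_mul_eq_one.1 this).symm
  obtain ⟨c, hc⟩ := Finite.injective_iff_surjective.1 hF ⟨D⁻¹ * α, fun x => by
    rw [← q_δ_inj]
    exact (congrArg q (δ.apply_symm_apply _)).trans (h x)⟩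
  have hc : D⁻¹ * c * D * (c : MulAut T0)⁻¹ = D⁻¹ * α := congrArg Subtype.val hc
  have e : (α : MulAut T0) * c = c * D := by
    calc (α : MulAut T0) * c = D * (D⁻¹ * α) * c := by group
      _ = _ := by rw [← hc]; group
  exact ⟨(c : MulAut T0), fun x => DFunLike.congr_fun e x⟩

/-- an element acting as `δ` modulo `Z` acts as `δ` after a change of coordinates -/
theorem exists_coord (hι : Function.Injective ε) (h : Act ε n 1) :
    ∃ c : T0 ≃* T0, ∀ x, n * ε (c x) * n⁻¹ = ε (c (δ x)) := by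
  choose z hz e using h
  let f : T0 →* T0 := MonoidHom.mk' (fun x => δ^[1] x * z x) fun x y => hι (by
    rw [map_mul ε (δ^[1] x * z x), ← e, ← e, ← e, map_mul]; group)
  have hf : Function.Injective f := fun x y h => hι (by
    have : n * ε x * n⁻¹ = n * ε y * n⁻¹ := by rw [e, e]; exact congrArg ε h
    simpa using this)
  obtain ⟨c, hc⟩ := aut2 (MulEquiv.ofBijective f (Finite.injective_iff_bijective.1 hf))
    fun x => q_mul_z _ _ (hz x)
  exact ⟨c, fun x => by rw [e, ← hc]; rfl⟩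

end CA.Ly.Au
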