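/-
Lyons' theorem: groups with elementary abelian Sylow 2-subgroup `T/Z` whose fusion respects the squaring map.
-/
import Cfsg.Agent.Lib.Ly.Aut
import Cfsg.Agent.Lib.Ly.Ar3

set_option autoImplicit false
set_option linter.unusedSectionVars false

open scoped ComplexConjugate

namespace CA.Ly.SC

open Cfsg Subgroup CA CA.Blk CA.Ch CA.Ly.Au

theorem arithC2 {ι : Type*} (s : Finset ι) (i0 : ι) (h0 : i0 ∈ s) (c1 c2 c3 x : ι → ℤ)
    (e0 : c1 i0 = 1 ∧ c2 i0 = 1 ∧ c3 i0 = 1 ∧ x i0 = 1)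
    (hx : ∀ i ∈ s, 0 < x i ∧ (x i + 5 * (c1 i + c2 i + c3 i)) % 16 = 0 ∧ (x i - 3 * c1 i + c2 i + c3 i) % 16 = 0 ∧
      (x i + c1 i - 3 * c2 i + c3 i) % 16 = 0 ∧ (x i + c1 i + c2 i - 3 * c3 i) % 16 = 0)
    (hk : ∀ i ∈ s, i ≠ i0 → ¬ (c1 i = x i ∧ c2 i = x i ∧ c3 i = x i))
    (h11 : ∑ i ∈ s, c1 i * c1 i = 16) (h12 : ∑ i ∈ s, c1 i * c2 i = 0) (h13 : ∑ i ∈ s, c1 i * c3 i = 0)
    (h22 : ∑ i ∈ s, c2 i * c2 i = 16) (h23 : ∑ i ∈ s, c2 i * c3 i = 0) (h33 : ∑ i ∈ s, c3 i * c3 i = 16)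
    (l1 : ∑ i ∈ s, c1 i * x i = 0) (l2 : ∑ i ∈ s, c2 i * x i = 0) (l3 : ∑ i ∈ s, c3 i * x i = 0)
    (k1 : ∑ i ∈ s, ((c1 i ^ 3 : ℤ) : ℚ) / x i = 0) (k2 : ∑ i ∈ s, ((c2 i ^ 3 : ℤ) : ℚ) / x i = 0)
    (k3 : ∑ i ∈ s, ((c3 i ^ 3 : ℤ) : ℚ) / x i = 0) : False := by
  have kb : ∀ (u v : ι → ℤ) (a1 a2 a3 b1 b2 b3 r : ℤ), (∀ i ∈ s, 4 * u i = a1 * c1 i + a2 * c2 i + a3 * c3 i) →
      (∀ i ∈ s, 4 * v i = b1 * c1 i + b2 * c2 i + b3 * c3 i) → a1 * b1 + a2 * b2 + a3 * b3 = r →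
      ∑ i ∈ s, u i * v i = r := fun u v a1 a2 a3 b1 b2 b3 r hu hv hr => by
    have : 16 * ∑ i ∈ s, u i * v i = a1 * b1 * ∑ i ∈ s, c1 i * c1 i + (a1 * b2 + a2 * b1) * ∑ i ∈ s, c1 i * c2 i +
        (a1 * b3 + a3 * b1) * ∑ i ∈ s, c1 i * c3 i + a2 * b2 * ∑ i ∈ s, c2 i * c2 i +
        (a2 * b3 + a3 * b2) * ∑ i ∈ s, c2 i * c3 i + a3 * b3 * ∑ i ∈ s, c3 i * c3 i := by
      simp only [Finset.mul_sum, ← Finset.sum_add_distrib]
      exact Finset.sum_congr rfl fun i hi => by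
        linear_combination (4 * v i) * hu i hi + (a1 * c1 i + a2 * c2 i + a3 * c3 i) * hv i hi
    rw [h11, h12, h13, h22, h23, h33] at this
    linarith
  have kl : ∀ (u : ι → ℤ) (a1 a2 a3 : ℤ), (∀ i ∈ s, 4 * u i = a1 * c1 i + a2 * c2 i + a3 * c3 i) →
      ∑ i ∈ s, u i * x i = 0 := fun u a1 a2 a3 hu => by
    have : 4 * ∑ i ∈ s, u i * x i = a1 * ∑ i ∈ s, c1 i * x i + a2 * ∑ i ∈ s, c2 i * x i +
        a3 * ∑ i ∈ s, c3 i * x i := by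
      simp only [Finset.mul_sum, ← Finset.sum_add_distrib]
      exact Finset.sum_congr rfl fun i hi => by linear_combination x i * hu i hi
    rw [l1, l2, l3] at this
    linarith
  obtain ⟨g1, g2, g3, u1, u2, u3⟩ : ∃ g1 g2 g3 : ι → ℤ, (∀ i ∈ s, 4 * g1 i = 2 * c1 i + 1 * c2 i + 1 * c3 i) ∧
      (∀ i ∈ s, 4 * g2 i = 1 * c1 i + 2 * c2 i + 1 * c3 i) ∧ ∀ i ∈ s, 4 * g3 i = 1 * c1 i + 1 * c2 i + 2 * c3 i :=
    ⟨fun i => (2 * c1 i + c2 i + c3 i) / 4, fun i => (c1 i + 2 * c2 i + c3 i) / 4,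
      fun i => (c1 i + c2 i + 2 * c3 i) / 4, fun i hi => by have := hx i hi; beta_reduce; omega,
      fun i hi => by have := hx i hi; beta_reduce; omega, fun i hi => by have := hx i hi; beta_reduce; omega⟩
  have v : ∀ i ∈ s, 4 * g1 i - (g1 i + g2 i + g3 i) = c1 i ∧ 4 * g2 i - (g1 i + g2 i + g3 i) = c2 i ∧
      4 * g3 i - (g1 i + g2 i + g3 i) = c3 i ∧ g1 i + g2 i + g3 i = c1 i + c2 i + c3 i := fun i hi => by
    have := u1 i hi; have := u2 i hi; have := u3 i hi; omega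
  refine arithC s i0 h0 g1 g2 g3 x ?_ (fun i hi => ?_) (fun i hi h => ?_)
    (kb _ _ _ _ _ _ _ _ _ u1 u1 rfl) (kb _ _ _ _ _ _ _ _ _ u1 u2 rfl) (kb _ _ _ _ _ _ _ _ _ u1 u3 rfl)
    (kb _ _ _ _ _ _ _ _ _ u2 u2 rfl) (kb _ _ _ _ _ _ _ _ _ u2 u3 rfl) (kb _ _ _ _ _ _ _ _ _ u3 u3 rfl)
    (kl _ _ _ _ u1) (kl _ _ _ _ u2) (kl _ _ _ _ u3)
    (k1 ▸ Finset.sum_congr rfl fun i hi => by rw [(v i hi).1])
    (k2 ▸ Finset.sum_congr rfl fun i hi => by rw [(v i hi).2.1])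
    (k3 ▸ Finset.sum_congr rfl fun i hi => by rw [(v i hi).2.2.1])
  · have := u1 _ h0; have := u2 _ h0; have := u3 _ h0; omega
  · rw [(v i hi).2.2.2]; exact ⟨(hx i hi).1, (hx i hi).2.1⟩
  · rw [(v i hi).1, (v i hi).2.1, (v i hi).2.2.1]; exact hk i hi h

/-! ### linear characters of `T0` -/

def sg (j : ℕ) : T0 →* ℤˣ := MonoidHom.mk' (fun x => if (q x).testBit j then -1 else 1) fun x y => by
  rw [q_mul, Nat.testBit_xor]
  cases (q x).testBit j <;> cases (q y).testBit j <;> simp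
def ind (k : ℕ) (y : T0) : ℤ := if Qc (q y) = k then 1 else 0
def nn (k j : ℕ) : ℤ := ∑ y, ind k y * (sg j y : ℤ)

theorem nn_val : (nn 0 4 = 4 ∧ nn 1 4 = 20 ∧ nn 2 4 = 20 ∧ nn 3 4 = 20) ∧
    (nn 0 3 = 4 ∧ nn 1 3 = -12 ∧ nn 2 3 = 4 ∧ nn 3 3 = 4) ∧ (nn 0 0 = 4 ∧ nn 1 0 = 4 ∧ nn 2 0 = -12 ∧ nn 3 0 = 4) ∧
    (nn 0 2 = 4 ∧ nn 1 2 = 4 ∧ nn 2 2 = 4 ∧ nn 3 2 = -12) := by decide +kernel

theorem sq_cases : ∀ y : T0, (Qc (q y) = 0 ∧ y * y = 1 * 1) ∨ (Qc (q y) = 1 ∧ y * y = el 1 * el 1) ∨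
    (Qc (q y) = 2 ∧ y * y = el 2 * el 2) ∨ (Qc (q y) = 3 ∧ y * y = el 4 * el 4) := by decide +kernel

theorem char_vals {θ : T0 → ℂ} (h : IsChar θ) (hθ : ∀ x y, x * x = y * y → θ x = θ y) : ∃ c1 c2 c3 x : ℤ,
    θ (el 1) = c1 ∧ θ (el 2) = c2 ∧ θ (el 4) = c3 ∧ θ 1 = x ∧ (x + 5 * (c1 + c2 + c3)) % 16 = 0 ∧
      (x - 3 * c1 + c2 + c3) % 16 = 0 ∧ (x + c1 - 3 * c2 + c3) % 16 = 0 ∧ (x + c1 + c2 - 3 * c3) % 16 = 0 := by
  have e : ∀ y, θ y = θ 1 * ind 0 y + θ (el 1) * ind 1 y + θ (el 2) * ind 2 y + θ (el 4) * ind 3 y := fun y => by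
    rcases sq_cases y with ⟨a, b⟩ | ⟨a, b⟩ | ⟨a, b⟩ | ⟨a, b⟩ <;> simp [ind, a, hθ _ _ b]
  have key : ∀ j, ∃ m : ℕ, 64 * (m : ℂ) =
      θ 1 * nn 0 j + θ (el 1) * nn 1 j + θ (el 2) * nn 2 j + θ (el 4) * nn 3 j := fun j => by
    obtain ⟨m, hm⟩ := h.ip_nat (isChar_lin ((Units.map (Int.castRingHom ℂ).toMonoidHom).comp (sg j)))
    refine ⟨m, ?_⟩
    rw [← hm, ip_def, card_T0]
    simp only [nn, Int.cast_sum, Finset.mul_sum, ← Finset.sum_add_distrib]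
    refine Finset.sum_congr rfl fun y _ => ?_
    have : Ch.lin ((Units.map (Int.castRingHom ℂ).toMonoidHom).comp (sg j)) y = ((sg j y : ℤ) : ℂ) := rfl
    rw [this, map_intCast]
    conv_lhs => rw [e y]
    push_cast
    ring
  obtain ⟨m0, h0⟩ := key 4
  obtain ⟨m1, h1⟩ := key 3
  obtain ⟨m2, h2⟩ := key 0
  obtain ⟨m3, h3⟩ := key 2
  obtain ⟨⟨a1, a2, a3, a4⟩, ⟨b1, b2, b3, b4⟩, ⟨c1, c2, c3, c4⟩, d1, d2, d3, d4⟩ := nn_val
  rw [a1, a2, a3, a4] at h0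
  rw [b1, b2, b3, b4] at h1
  rw [c1, c2, c3, c4] at h2
  rw [d1, d2, d3, d4] at h3
  push_cast at h0 h1 h2 h3
  refine ⟨m0 - 3 * m1 + m2 + m3, m0 + m1 - 3 * m2 + m3, m0 + m1 + m2 - 3 * m3, m0 + 5 * (m1 + m2 + m3),
    ?_, ?_, ?_, ?_, by omega, by omega, by omega, by omega⟩ <;> push_cast
  · linear_combination (-h0 + 3 * h1 - h2 - h3) / 64
  · linear_combination (-h0 - h1 + 3 * h2 - h3) / 64
  · linear_combination (-h0 - h1 - h2 + 3 * h3) / 64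
  · linear_combination (-h0 - 5 * h1 - 5 * h2 - 5 * h3) / 64

/-! ### the class sum relation -/

variable {X : Type*} [Group X] [Finite X]

theorem cubic {a : X} (ha : a * a = 1)
    (h : ∀ s u, IsConj a s → IsConj a u → IsConj a (s * u) → Commute s u → False) :
    ∑ χ ∈ B0 X 2, conj (χ a * χ a / χ 1) * χ a = 0 := by
  classical
  haveI := Fintype.ofFinite X
  have h1 := pi0_eq_zero (p := 2) (φ := fun w => ∑ y, if w = y * a * y⁻¹ * a then (1 : ℂ) else 0) (g := a)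
    fun w hw => Finset.sum_eq_zero fun y _ => if_neg (by
      rintro rfl
      have hb := Inv.conj_mul_self ha y
      have hc : IsConj a (y * a * y⁻¹) := isConj_iff.2 ⟨y, rfl⟩
      rw [constt_eq_self (piElt_two_of_sq ha)] at hw
      obtain ⟨k, hk⟩ := constt_mem_zpowers {2} (y * a * y⁻¹ * a)
      beta_reduce at hk
      rw [← hk] at hw
      refine h _ _ hw hc ?_ ?_
      · rcases Inv.zpow_mul_conj hb ha k with ⟨j, hj⟩ | ⟨j, hj⟩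
        · exact hc.trans (isConj_iff.2 ⟨_, hj⟩)
        · exact isConj_iff.2 ⟨_, hj⟩
      · obtain ⟨g, hg⟩ := isConj_iff.1 hw
        have := Inv.mul_zpow_left hb ha k
        rw [zpow_neg, ← hg, Inv.inv_eq_self (Inv.conj_mul_self ha g)] at this
        rw [← hg]
        exact this.symm)
  rw [pi0_apply] at h1
  rw [← h1]
  refine Finset.sum_congr rfl fun χ hχ => ?_
  have hi := irr_of_B0 hχ
  congr 1
  rw [ip_def]
  simp only [Finset.sum_mul, ite_mul, one_mul, zero_mul]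
  rw [Finset.sum_comm]
  simp only [Finset.sum_ite_eq', Finset.mem_univ, if_true]
  rw [← map_sum, eq_div_of_mul_eq hi.ne_zero_one ((mul_comm _ _).trans (sum_conj_irr hi a a)),
    mul_div_assoc (Nat.card X : ℂ), map_mul _ (Nat.card X : ℂ), map_natCast,
    inv_mul_cancel_left₀ (Ch.card_ne_zero' X)]

/-! ### the local structure -/

theorem orbit5 : ∀ x y : T0, x * x = y * y → ∃ k < 5, q y = q (δ^[3 * k] x) := by decide +kernel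
theorem no_tri : ∀ p r : T0, p * p = r * r → p * p = p * r * (p * r) → p * p = 1 := by decide +kernel
theorem card_Z : Fintype.card {x : T0 // x * x = 1} = 4 := by decide +kernel

variable {ε : T0 →* X} (hk : ∀ x, ε x = 1 ↔ x * x = 1) (hS : SylowIn 2 ε.range ⊤)
  (hQ : ∀ g x y, g * ε x * g⁻¹ = ε y → x * x = y * y) {n : X}

include hk in
theorem cent_of_zero (h : Act ε n 0) : n ∈ 𝐂(ε.range) := mem_cent_iff'.2 (by
  rintro _ ⟨x, rfl⟩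
  obtain ⟨z, hz, e⟩ := h x
  rw [map_mul, (hk z).2 hz, mul_one, mul_inv_eq_iff_eq_mul] at e
  exact e)

include hk in
theorem card_range : Nat.card ε.range = 16 := by
  have h1 : Nat.card ε.ker = 4 := by
    rw [← card_Z, ← Nat.card_eq_fintype_card]
    exact Nat.card_congr (Equiv.subtypeEquivRight hk)
  have h2 := ε.ker.card_mul_index
  rw [h1, card_T0, index_ker] at h2
  exact Nat.eq_of_mul_eq_mul_left (by decide : 0 < 4) h2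

include hk hS hQ

theorem act3 (hn : n ∈ 𝐍(ε.range)) : ∃ j < 5, Act ε n (3 * j) := by
  obtain ⟨i, hi, h⟩ := act_of_norm (fun x => (hk x).1) (fun n _ x y x' y' e e' e'' =>
    (hQ _ _ _ e).symm.trans (e''.trans (hQ _ _ _ e'))) hS hn
  obtain ⟨z, hz, e⟩ := h y0
  have := hQ _ _ _ e
  rw [mul_z_sq _ _ hz, ← δ_mul, y0_sq] at this
  obtain ⟨j, rfl⟩ := δ_fix i hi z0 (by decide +kernel) z_ne.1 this.symm
  exact ⟨j, by omega, h⟩

theorem exists_act3 (hn : n ∈ 𝐍(ε.range)) (hc : n ∉ 𝐂(ε.range)) : ∃ k, Act ε (n ^ k) 3 := by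
  obtain ⟨j, hj, h⟩ := act3 hk hS hQ hn
  have h0 : j ≠ 0 := by rintro rfl; exact hc (cent_of_zero hk h)
  exact ⟨j ^ 3, act_congr (act_pow h _) (by interval_cases j <;> simp_all)⟩

theorem local_sd {x : T0} (hx : x * x ≠ 1) : SDProd (piCoreOf {2}ᶜ 𝐂[ε x]) ε.range 𝐂[ε x] ∧
    NormalPCompl 2 𝐂[ε x] := by
  have h1 : SylowIn 2 ε.range 𝐂[ε x] := hS.of_le (mem_cent_iff_le_cent1.1 (cent_of_zero hk (act_range x))) le_top
  have h2 : 𝐂[ε x] ⊓ 𝐍(ε.range) ≤ 𝐂(ε.range) := fun n hn => by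
    obtain ⟨j, -, h⟩ := act3 hk hS hQ hn.2
    exact cent_of_zero hk (act_fix (fun x => (hk x).1) h hx
      (by rw [mem_cent1_iff.1 hn.1, mul_inv_cancel_right]))
  exact ⟨h1.sdprod_of_cent h2, h1.normalPCompl_of_cent h2⟩

theorem no_triple {x : T0} (hx : x * x ≠ 1) (s u : X) (h1 : IsConj (ε x) s) (h2 : IsConj (ε x) u)
    (h3 : IsConj (ε x) (s * u)) (hc : Commute s u) : False := by
  have hi : ∀ s, IsConj (ε x) s → s * s = 1 := fun s h => by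
    obtain ⟨g, rfl⟩ := isConj_iff.1 h
    exact Inv.conj_mul_self (by rw [← map_mul, hk, sq_sq]) g
  have hP : PiGrp {2} (zpowers s ⊔ zpowers u) :=
    (piGrp_zpowers.2 (piElt_two_of_sq (hi s h1))).sup (piGrp_zpowers.2 (piElt_two_of_sq (hi u h2)))
      (Or.inl (norms_of_cents (by rw [cent_zpowers, zpowers_le, mem_cent1_iff]; exact hc.symm)))
  obtain ⟨k, -, hle⟩ := hS.exists_cj_le hP le_top
  obtain ⟨p, hp⟩ := cj_le_iff'.1 hle s (mem_sup_left (mem_zpowers s))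
  obtain ⟨r, hr⟩ := cj_le_iff'.1 hle u (mem_sup_right (mem_zpowers u))
  have key : ∀ s p, IsConj (ε x) s → ε p = k * s * k⁻¹ → x * x = p * p := fun s p h e => by
    obtain ⟨g, rfl⟩ := isConj_iff.1 h
    exact hQ (k * g) _ _ (by rw [e]; group)
  have a := key s p h1 hp
  refine hx (a.trans (no_tri p r (a.symm.trans (key u r h2 hr)) (a.symm.trans (key _ _ h3 ?_))))
  rw [map_mul, hp, hr]; group

omit hk hQ in
theorem normal_of_cent (K : Subgroup X) [K.Normal] (hE : ε.range ≤ K) (h : K ⊓ 𝐍(ε.range) ≤ 𝐂(ε.range)) :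
    (piCoreOf {2}ᶜ (⊤ : Subgroup X) ⊔ ε.range).Normal := by
  have h1 := (SylowIn.sdprod_of_cent (hS.of_le hE le_top) h).sup_eq
  haveI := normal_piCoreOf_top (G := X) {2}ᶜ
  have : piCoreOf {2}ᶜ (⊤ : Subgroup X) ⊔ ε.range = piCoreOf {2}ᶜ (⊤ : Subgroup X) ⊔ K := by
    conv_rhs => rw [← h1, ← sup_assoc, sup_eq_left.2 (piCoreOf_le_top_of_normal K)]
  rw [this]
  infer_instance

theorem exists_ker {d : X} (hd : Act ε d 3) : ∃ ψ ∈ B0 X 2, ψ ≠ 1 ∧ ε.range ≤ cfker ψ := by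
  have hcj : ∀ x y, x * x = y * y → IsConj (ε x) (ε y) := fun x y h => by
    obtain ⟨k, -, e⟩ := orbit5 x y h
    obtain ⟨z, hz, rfl⟩ := (q_eq_iff _ _).1 e
    obtain ⟨w, hw, e'⟩ := act_pow hd k x
    exact isConj_iff.2 ⟨_, by rw [e', map_mul, map_mul, (hk z).2 hz, (hk w).2 hw]⟩
  have hv : ∀ χ : X → ℂ, ∃ c1 c2 c3 x : ℤ, χ ∈ B0 X 2 → χ (ε (el 1)) = c1 ∧ χ (ε (el 2)) = c2 ∧
      χ (ε (el 4)) = c3 ∧ χ 1 = x ∧ (x + 5 * (c1 + c2 + c3)) % 16 = 0 ∧ (x - 3 * c1 + c2 + c3) % 16 = 0 ∧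
      (x + c1 - 3 * c2 + c3) % 16 = 0 ∧ (x + c1 + c2 - 3 * c3) % 16 = 0 := fun χ => by
    by_cases h : χ ∈ B0 X 2
    · have hi := irr_of_B0 h
      obtain ⟨c1, c2, c3, x, e⟩ := char_vals (hi.isChar.comp ε) fun x y e => hi.isCF.of_isConj (hcj x y e)
      exact ⟨c1, c2, c3, x, fun _ => by simpa only [Function.comp_apply, map_one] using e⟩
    · exact ⟨0, 0, 0, 0, fun h' => absurd h' h⟩
  choose c1 c2 c3 x hv using hv
  have p2 : ∀ y, PiElt {2} (ε y) := fun y => hS.piGrp.piElt ⟨y, rfl⟩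
  have cast : ∀ {u v : (X → ℂ) → ℤ} {a b : X} {r : ℤ}, (∀ χ ∈ B0 X 2, χ a = u χ) → (∀ χ ∈ B0 X 2, χ b = v χ) →
      ∑ χ ∈ B0 X 2, χ a * conj (χ b) = r → ∑ χ ∈ B0 X 2, u χ * v χ = r := fun hu hv h => by
    refine Int.cast_injective (α := ℂ) ?_
    rw [← h, Int.cast_sum]
    exact Finset.sum_congr rfl fun χ hχ => by rw [hu χ hχ, hv χ hχ, map_intCast, Int.cast_mul]
  have dg : ∀ {u : (X → ℂ) → ℤ} {y : T0}, y * y ≠ 1 → (∀ χ ∈ B0 X 2, χ (ε y) = u χ) →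
      ∑ χ ∈ B0 X 2, u χ * u χ = 16 := fun hy hu => cast hu hu (by
    rw [sum_B0_self (p2 _) (local_sd hk hS hQ hy).2, (local_sd hk hS hQ hy).1.relIndex_left, card_range hk]
    norm_num)
  have od : ∀ {u v : (X → ℂ) → ℤ} {y y' : T0}, y * y ≠ y' * y' → (∀ χ ∈ B0 X 2, χ (ε y) = u χ) →
      (∀ χ ∈ B0 X 2, χ (ε y') = v χ) → ∑ χ ∈ B0 X 2, u χ * v χ = 0 := fun hy hu hv => cast hu hv (by
    rw [sum_B0_eq_zero, Int.cast_zero]
    rw [constt_eq_self (p2 _), constt_eq_self (p2 _)]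
    intro h
    obtain ⟨g, hg⟩ := isConj_iff.1 h
    exact hy (hQ g _ _ hg))
  have v1 := fun χ hχ => (hv χ hχ).1
  have v2 := fun χ hχ => (hv χ hχ).2.1
  have v3 := fun χ hχ => (hv χ hχ).2.2.1
  have v4 := fun χ hχ => (hv χ hχ).2.2.2.1
  have v0 : ∀ χ ∈ B0 X 2, χ (ε 1) = x χ := fun χ hχ => by rw [map_one, v4 χ hχ]
  have cu : ∀ {u : (X → ℂ) → ℤ} {y : T0}, y * y ≠ 1 → (∀ χ ∈ B0 X 2, χ (ε y) = u χ) →
      ∑ χ ∈ B0 X 2, ((u χ ^ 3 : ℤ) : ℚ) / x χ = 0 := fun {u y} hy hu => by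
    refine Rat.cast_injective (α := ℂ) ?_
    rw [Rat.cast_zero, ← cubic (a := ε y) (by rw [← map_mul, hk, sq_sq]) (no_triple hk hS hQ hy), Rat.cast_sum]
    refine Finset.sum_congr rfl fun χ hχ => ?_
    rw [hu χ hχ, v4 χ hχ, map_div₀, map_mul, map_intCast, map_intCast]
    push_cast
    ring
  by_contra hc
  have o := one_mem_B0 X 2
  refine arithC2 (B0 X 2) 1 o c1 c2 c3 x ⟨?_, ?_, ?_, ?_⟩ (fun χ hχ => ⟨?_, (hv χ hχ).2.2.2.2⟩)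
    (fun χ hχ h1 ⟨e1, e2, e3⟩ => hc ⟨χ, hχ, h1, ?_⟩)
    (dg (by decide +kernel) v1) (od (by decide +kernel) v1 v2) (od (by decide +kernel) v1 v3)
    (dg (by decide +kernel) v2) (od (by decide +kernel) v2 v3) (dg (by decide +kernel) v3)
    (od (by decide +kernel) v1 v0) (od (by decide +kernel) v2 v0) (od (by decide +kernel) v3 v0)
    (cu (by decide +kernel) v1) (cu (by decide +kernel) v2) (cu (by decide +kernel) v3)
  · exact Int.cast_injective (α := ℂ) ((v1 _ o).symm.trans Int.cast_one.symm)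
  · exact Int.cast_injective (α := ℂ) ((v2 _ o).symm.trans Int.cast_one.symm)
  · exact Int.cast_injective (α := ℂ) ((v3 _ o).symm.trans Int.cast_one.symm)
  · exact Int.cast_injective (α := ℂ) ((v4 _ o).symm.trans Int.cast_one.symm)
  · obtain ⟨m, hm, e⟩ := (irr_of_B0 hχ).nat
    rw [v4 χ hχ] at e
    have : x χ = m := by exact_mod_cast e
    omega
  · rintro _ ⟨y, rfl⟩
    have hi := irr_of_B0 hχ
    rw [hi.mem_cfker, v4 χ hχ]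
    rcases sq_cases y with ⟨-, b⟩ | ⟨-, b⟩ | ⟨-, b⟩ | ⟨-, b⟩ <;> rw [hi.isCF.of_isConj (hcj _ _ b)]
    · exact v0 χ hχ
    · rw [v1 χ hχ, e1]
    · rw [v2 χ hχ, e2]
    · rw [v3 χ hχ, e3]

end CA.Ly.SC

namespace CA.Ly

open Cfsg Subgroup CA CA.Blk CA.Ch CA.Ly.Au CA.Ly.SC

theorem stepC {X : Type*} [Group X] [Finite X] (ε : T0 →* X) (hk : ∀ x, ε x = 1 ↔ x * x = 1)
    (hS : SylowIn 2 ε.range ⊤) (hQ : ∀ g x y, g * ε x * g⁻¹ = ε y → x * x = y * y) :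
    (piCoreOf {2}ᶜ (⊤ : Subgroup X) ⊔ ε.range).Normal := by
  by_cases h0 : (⊤ : Subgroup X) ⊓ 𝐍(ε.range) ≤ 𝐂(ε.range)
  · exact normal_of_cent hS ⊤ le_top h0
  obtain ⟨n, hn, hc⟩ := SetLike.not_le_iff_exists.1 h0
  obtain ⟨k, hd⟩ := exists_act3 hk hS hQ hn.2 hc
  obtain ⟨ψ, hψ, h1, hE⟩ := exists_ker hk hS hQ hd
  have hi := irr_of_B0 hψ
  haveI := hi.isCF.cfker_normal
  refine normal_of_cent hS (cfker ψ) hE fun m hm => ?_
  by_contra hc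
  obtain ⟨k, hd⟩ := exists_act3 hk hS hQ hm.2 hc
  have hy : y0 * y0 ≠ 1 := by decide +kernel
  have hC : 𝐂[ε y0] ≤ cfker ψ := by
    rw [← (local_sd hk hS hQ hy).1.sup_eq]
    refine sup_le (fun w hw => ?_) hE
    have := apply_mul_of_B0 hψ (hS.piGrp.piElt (⟨y0, rfl⟩ : ε y0 ∈ ε.range)) (piCoreOf_le _ _) (piCoreOf_norm _ _)
      (piCoreOf_piGrp _ _) hw
    rw [hE ⟨y0, rfl⟩ w, cfker_apply (hE ⟨y0, rfl⟩)] at this
    exact hi.mem_cfker.2 this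
  refine hi.cfker_ne_top h1 (eq_top_iff.2 fun g _ => ?_)
  obtain ⟨a, ha, b, hb, rfl⟩ := frattini_exists_mul (M := ⊤) ⟨le_top, le_of_eq (normalizer_eq_top _).symm⟩
    (hS.of_le hE le_top) g (mem_top g)
  obtain ⟨j, hj, h⟩ := act3 hk hS hQ hb.2
  have h2 := hC (cent_le_cent1 (⟨y0, rfl⟩ : ε y0 ∈ ε.range)
    (cent_of_zero hk (act_congr (act_mul (act_pow hd (5 - j)) h) (by omega))))
  exact mul_mem ha (((cfker ψ).mul_mem_cancel_left (pow_mem (pow_mem hm.1 k) _)).1 h2)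

end CA.Ly
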