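/-
Lyons' theorem: the 2-local structure of a simple group with Sylow 2-subgroup of type `U₃(4)`.
-/
import Cfsg.Agent.Lib.Ly.StepC

set_option autoImplicit false
set_option linter.unusedSectionVars false

namespace CA.Ly.St

open Cfsg Subgroup CA CA.Blk CA.Ly.Au

theorem mem_cen {x : T0} : x ∈ center T0 ↔ x * x = 1 :=
  mem_center_iff.trans ⟨fun h => sq_of_cen x fun y => (h y).symm, fun h y => (cen_of_sq x h y).symm⟩

theorem card_cent : ∀ y : T0, y * y ≠ 1 → Fintype.card {x : T0 // x * y = y * x} = 16 := by decide +kernel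
theorem crt : ∀ i < 15, ∀ j < 15, ¬ 3 ∣ i → ¬ 5 ∣ j → ∃ a < 3, ∃ b < 5, (i * (5 * a) + j * (3 * b)) % 15 = 1 := by
  decide +kernel
theorem z0_sq : z0 * z0 = 1 := by decide +kernel

variable {G : Type*} [Group G] [Finite G]

theorem sd_of_mul {K P M : Subgroup G} (hK : K ⊴ M) (hK' : PiGrp {2}ᶜ K) (hP : P ≤ M) (hP' : PiGrp {2} P)
    (h : ∀ m ∈ M, ∃ k ∈ K, ∃ a ∈ P, m = k * a) :
    NormalPCompl 2 M ∧ (piCoreOf {2}ᶜ M).relIndex M = Nat.card P := by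
  have h1 : SDProd K P M := ⟨sup_eq_of_exists_mul hK.1 hP h, hP.trans hK.2, hK'.inf_eq_bot' hP'⟩
  have h2 := h1.hall_right_of hK' hP'
  exact ⟨h1.normalPCompl h2, by rw [← h1.eq_piCoreOf_compl h2, h1.relIndex_left]⟩

variable {ι : T0 →* G} (hι : Function.Injective ι) (hS : SylowIn 2 ι.range ⊤) {g n k : G}

theorem zcen {z : T0} (hz : z * z = 1) : ι z ∈ 𝐂(ι.range) := mem_cent_iff'.2 (by
  rintro _ ⟨x, rfl⟩
  rw [← map_mul, ← map_mul, cen_of_sq z hz])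

theorem le_cz {z : T0} (hz : z * z = 1) : ι.range ≤ 𝐂[ι z] := mem_cent_iff_le_cent1.1 (zcen hz)

include hι in
theorem hk1 (x : T0) (h : ι x = 1) : x * x = 1 := by rw [(map_eq_one_iff ι hι).1 h, mul_one]

include hι in
theorem sq_conj {x y : T0} (h : g * ι x * g⁻¹ = ι y) : g * ι (x * x) * g⁻¹ = ι (y * y) := by
  rw [map_mul, map_mul, ← h]; group

include hι in
theorem inv_fus {M : Subgroup G} (hM : SylowIn 2 ι.range M) (hg : g ∈ M) {x y : T0} (hx : x * x = 1)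
    (h : g * ι x * g⁻¹ = ι y) : ∃ n ∈ M ⊓ 𝐍(ι.range), n * ι x * n⁻¹ = ι y := by
  have hy : y * y = 1 := hι (by rw [← sq_conj hι h, hx]; simp)
  rw [← h]
  exact hM.exists_norm_conj hg (zcen hx) (h ▸ zcen hy)

include hι hS

theorem act (hn : n ∈ 𝐍(ι.range)) : ∃ i < 15, Act ι n i := act_of_norm (hk1 hι) (qc_of_inj hι) hS hn

omit hι in
theorem eq_one_of {M : Subgroup G} (h : k ∈ piCoreOf {2}ᶜ M) (h' : k ∈ ι.range) : k = 1 :=
  (hS.piGrp.piElt h').eq_one ((piCoreOf_piGrp _ _).piElt h)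

omit hι in
theorem cancel {M : Subgroup G} (hM : ι.range ≤ M) (h : k ∈ piCoreOf {2}ᶜ M) {a b : G} (ha : a ∈ ι.range)
    (hb : b ∈ ι.range) (e : k * a * k⁻¹ = b) : a = b := by
  have := eq_one_of hS (mul_mem h (conj_mem_of_mem_normalizer (piCoreOf_norm _ _ (hM ha)) (inv_mem h)))
    (by rw [← mul_assoc, ← mul_assoc, e]; exact mul_mem hb (inv_mem ha))
  rw [← mul_assoc, ← mul_assoc, e, mul_inv_eq_one] at this
  exact this.symm

section loc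

variable {z : T0} (hz : z * z = 1) (hz1 : z ≠ 1)
include hz hz1

theorem actH (hn : n ∈ 𝐂[ι z] ⊓ 𝐍(ι.range)) : ∃ j < 5, Act ι n (3 * j) := by
  obtain ⟨i, hi, h⟩ := act hι hS hn.2
  have := act_sq h hz
  rw [mem_cent1_iff.1 hn.1, mul_inv_cancel_right] at this
  obtain ⟨j, rfl⟩ := δ_fix i hi z hz hz1 (hι this).symm
  exact ⟨j, by omega, h⟩

theorem zs {w : T0} (hw : w * w = 1) (hg : g ∈ 𝐂[ι z]) : ι w * (g * ι w * g⁻¹) ∈ piCoreOf {2}ᶜ 𝐂[ι z] := by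
  have h1 : SylowIn 2 ι.range 𝐂[ι z] := hS.of_le (le_cz hz) le_top
  refine zstar_in h1 ⟨w, rfl⟩ (by rw [← map_mul, hw, map_one]) (fun g hg ⟨y, hy⟩ => ?_) hg
  obtain ⟨n, hn, e⟩ := inv_fus hι h1 hg hw hy.symm
  obtain ⟨j, hj, h⟩ := actH hι hS hz hz1 hn
  rw [← hy, ← e, act_sq h hw, δ_three _ (by omega) (Dvd.intro _ rfl) w hw]

theorem frat (hg : g ∈ 𝐂[ι z]) : ∃ k ∈ piCoreOf {2}ᶜ 𝐂[ι z], ∃ n ∈ 𝐂[ι z] ⊓ 𝐍(ι.range), g = k * n := by
  have zs := fun {w g} => zs hι hS hz hz1 (w := w) (g := g)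
  have hT := le_cz (ι := ι) hz
  generalize 𝐂[ι z] = H at hg zs hT ⊢
  have h1 : SylowIn 2 ι.range H := hS.of_le hT le_top
  have hO := piCoreOf_norm {2}ᶜ H
  have hZ : (center T0).map ι ≤ ι.range := map_le_range _ _
  set O := piCoreOf {2}ᶜ H with hOd
  set N := O ⊔ (center T0).map ι with hN
  have mN : ∀ a ∈ N, ∃ k ∈ O, ∃ w, w * w = 1 ∧ a = k * ι w := fun a ha => by
    obtain ⟨k, hk, _, ⟨w, hw, rfl⟩, rfl⟩ := (mem_sup_of_norm_right (hZ.trans (hT.trans hO))).1 ha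
    exact ⟨k, hk, w, mem_cen.1 hw, rfl⟩
  have nN : H ≤ 𝐍(N) := fun g hg => mem_normalizer_of_cj_le (by
    rw [hN, cj_sup, cj_eq_of_mem_normalizer (hO hg)]
    refine sup_le le_sup_left (cj_le_iff'.2 ?_)
    rintro _ ⟨w, hw, rfl⟩
    have : _ ∈ N := mul_mem (mem_sup_right (mem_map_of_mem ι hw)) (mem_sup_left (zs (mem_cen.1 hw) hg))
    rwa [← mul_assoc, ← map_mul, mem_cen.1 hw, map_one, one_mul] at this)
  have hNH : N ≤ H := sup_le (piCoreOf_le _ _) (hZ.trans hT)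
  haveI : (N.subgroupOf H).Normal := (normal_subgroupOf_iff_le_normalizer hNH).2 nN
  let f := QuotientGroup.mk' (N.subgroupOf H)
  have hf : f.range = ⊤ := MonoidHom.range_eq_top.2 (QuotientGroup.mk'_surjective _)
  have kf : pker f = N := by
    rw [pker, pcomap, MonoidHom.comap_bot, QuotientGroup.ker_mk', map_subgroupOf_eq_of_le hNH]
  let ε := f.comp (ι.codRestrict H fun x => hT ⟨x, rfl⟩)
  have hε : ∀ x, ε x = pel f (ι x) := fun x => (pel_of_mem f (hT ⟨x, rfl⟩)).symm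
  have k1 : ∀ a ∈ H, pel f a = 1 ↔ a ∈ N := fun a ha =>
    ⟨fun h => kf.le (mem_pker.2 ⟨ha, h⟩), fun h => (mem_pker.1 (kf.ge h)).2⟩
  have hk : ∀ x, ε x = 1 ↔ x * x = 1 := fun x => by
    rw [hε, k1 _ (hT ⟨x, rfl⟩)]
    refine ⟨fun h => ?_, fun h => mem_sup_right (mem_map_of_mem ι (mem_cen.2 h))⟩
    obtain ⟨k, hk, w, hw, e⟩ := mN _ h
    have := eq_one_of hS hk ⟨x * w⁻¹, by rw [map_mul, e, map_inv, mul_inv_cancel_right]⟩
    rw [this, one_mul] at e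
    rw [hι e, hw]
  have hE : pmap f ι.range = ε.range := by
    ext a
    rw [mem_pmap_of_le hT]
    exact ⟨fun ⟨_, ⟨x, rfl⟩, e⟩ => ⟨x, (hε x).trans e⟩, fun ⟨x, e⟩ => ⟨_, ⟨x, rfl⟩, (hε x).symm.trans e⟩⟩
  have hC := stepC ε hk (by have := h1.pmap f hT; rwa [hE, pmap_dom, hf] at this) fun g x y e => by
    obtain ⟨⟨g, hg⟩, rfl⟩ := QuotientGroup.mk'_surjective (N.subgroupOf H) g
    have hx := hT ⟨x, rfl⟩
    have hy := hT ⟨y, rfl⟩
    have ha := mul_mem (mul_mem hg hx) (inv_mem hg)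
    rw [hε, hε, ← pel_of_mem f hg, ← pel_conj f hg hx, ← mul_inv_eq_one, ← pel_inv f hy,
      ← pel_mul f ha (inv_mem hy), k1 _ (mul_mem ha (inv_mem hy))] at e
    obtain ⟨k, hk, w, hw, e⟩ := mN _ e
    rw [mul_inv_eq_iff_eq_mul, mul_assoc k, ← map_mul, cen_of_sq w hw] at e
    have h2 := zs (sq_sq x) hg
    have h3 := mul_mem hk (conj_mem_of_mem_normalizer (hO (hT ⟨y * w, rfl⟩)) hk)
    have h4 := mul_mem (inv_mem (conj_mem_of_mem_normalizer (hO (hT ⟨x * x, rfl⟩)) h3)) h2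
    have e2 : g * ι (x * x) * g⁻¹ = k * (ι (y * w) * k * (ι (y * w))⁻¹) * ι (y * y) := by
      rw [← mul_z_sq y w hw, map_mul ι (y * w), map_mul ι x]
      calc g * (ι x * ι x) * g⁻¹ = g * ι x * g⁻¹ * (g * ι x * g⁻¹) := by group
        _ = _ := by rw [e]; group
    have h5 := eq_one_of hS h4 ⟨x * x * (y * y), by rw [e2, map_mul ι (x * x)]; group⟩
    rw [e2, show ∀ a b c : G, (a * b * a⁻¹)⁻¹ * (a * (b * c)) = a * c by intros; group, ← map_mul,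
      map_eq_one_iff ι hι, mul_eq_one_iff_eq_inv, inv_eq_of_mul_eq_one_right (sq_sq y)] at h5
    exact h5
  haveI := normal_piCoreOf_top (G := H ⧸ N.subgroupOf H) {2}ᶜ
  have nm : ∀ (U : Subgroup (H ⧸ N.subgroupOf H)) [U.Normal], pcomap f U ⊴ H := fun U _ =>
    ⟨pcomap_le_dom f U, norms_pcomap le_rfl (by rw [normalizer_eq_top]; exact le_top)⟩
  have hW : pcomap f (piCoreOf {2}ᶜ ⊤) ≤ N := by
    have n1 := nm (piCoreOf {2}ᶜ ⊤)
    have s1 : SylowIn 2 _ _ := h1.inf_normal n1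
    have z1 : ∀ x, ι x ∈ pcomap f (piCoreOf {2}ᶜ ⊤) → x * x = 1 := fun x hx => (hk x).1 (by
      refine ((hS.piGrp.piElt ⟨x, rfl⟩).pel f).eq_one ((piCoreOf_piGrp _ _).piElt (mem_pcomap.1 hx).2) ▸ hε x)
    rw [← (s1.sdprod_of_cent fun n hn => mem_cent_iff'.2 ?_).sup_eq]
    · refine sup_le_sup (piCoreOf_le_of_normalIn _ n1) ?_
      rintro _ ⟨⟨x, rfl⟩, hx⟩
      exact mem_map_of_mem ι (mem_cen.2 (z1 x hx))
    · rintro _ ⟨⟨x, rfl⟩, hx⟩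
      have := eq_one_of hS (zs (z1 x hx) (n1.1 hn.1))
        (mul_mem ⟨x, rfl⟩ (conj_mem_of_mem_normalizer hn.2 ⟨⟨x, rfl⟩, hx⟩).1)
      rw [mul_eq_one_iff_inv_eq, ← map_inv, inv_eq_of_mul_eq_one_right (z1 x hx), eq_mul_inv_iff_mul_eq] at this
      exact this.symm
  have hL : pcomap f (piCoreOf {2}ᶜ ⊤ ⊔ ε.range) = pcomap f (piCoreOf {2}ᶜ ⊤) ⊔ (N ⊔ ι.range) := by
    rw [pcomap_sup (le_top.trans hf.ge) (le_top.trans hf.ge), ← hE, pcomap_pmap f hT, kf]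
  have n2 := nm (piCoreOf {2}ᶜ ⊤ ⊔ ε.range)
  obtain ⟨l, hl, n, hn, rfl⟩ := frattini_exists_mul n2
    (h1.of_le (hL ▸ le_sup_of_le_right le_sup_right) n2.1) g hg
  have hNT : N ≤ O ⊔ ι.range := sup_le_sup_left hZ _
  rw [hL] at hl
  obtain ⟨k, hk, a, ha, rfl⟩ := (mem_sup_of_norm_right (hT.trans hO)).1
    (sup_le (hW.trans hNT) (sup_le hNT le_sup_right) hl)
  exact ⟨k, hk, a * n, mul_mem ⟨hT ha, le_normalizer ha⟩ hn, mul_assoc _ _ _⟩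

theorem odd_cent (hc : n ∈ 𝐂(ι.range)) (ho : PiElt {2}ᶜ n) : n ∈ piCoreOf {2}ᶜ 𝐂[ι z] := by
  have hCH : 𝐂(ι.range) ≤ 𝐂[ι z] := cent_le_cent1 ⟨z, rfl⟩
  have n1 : 𝐂(ι.range) ⊴ 𝐍(ι.range) := ⟨centralizer_le_normalizer _, normalizer_le_normalizer_centralizer _⟩
  have s1 : SylowIn 2 _ _ := (hS.of_le le_normalizer le_top).inf_normal n1
  have h1 := s1.normalPCompl_of_cent (inf_le_left.trans (cent_mono inf_le_left))
  have hD := (piCoreOf_le {2}ᶜ _).trans hCH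
  refine le_piCoreOf (N := piCoreOf {2}ᶜ 𝐂[ι z] ⊔ piCoreOf {2}ᶜ 𝐂(ι.range))
    ⟨sup_le (piCoreOf_le _ _) hD, fun g hg => ?_⟩
    ((piCoreOf_piGrp _ _).sup (piCoreOf_piGrp _ _) (Or.inl (hD.trans (piCoreOf_norm _ _))))
    (mem_sup_right ((h1.mem_iff hc).2 ho))
  obtain ⟨k, hk, m, hm, rfl⟩ := frat hι hS hz hz1 hg
  exact mul_mem (le_normalizer (mem_sup_left hk))
    (norms_sup (inf_le_left.trans (piCoreOf_norm _ _)) (inf_le_right.trans (norms_piCoreOf _ n1.2)) hm)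

theorem of_act_zero (h : Act ι n 0) : ∃ k ∈ piCoreOf {2}ᶜ 𝐂[ι z], ∃ x, n = k * ι x := by
  obtain ⟨x, hx⟩ := two_part_mem hS (act_norm h)
  exact ⟨_, odd_cent hι hS hz hz1 (cent_of_act_zero (act_odd_part hS h) (piElt_two_compl.1 (constt_piElt _ _)))
    (constt_piElt _ _), x, by rw [← hx, constt_compl_mul]⟩

theorem fusH (hg : g ∈ 𝐂[ι z]) : ∃ k ∈ piCoreOf {2}ᶜ 𝐂[ι z], ∃ n ∈ 𝐂[ι z] ⊓ 𝐍(ι.range), g = k * n ∧
    ∀ a ∈ ι.range, g * a * g⁻¹ ∈ ι.range → n * a * n⁻¹ = g * a * g⁻¹ := by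
  obtain ⟨k, hk, n, hn, rfl⟩ := frat hι hS hz hz1 hg
  exact ⟨k, hk, n, hn, rfl, fun a ha hb =>
    cancel hS (le_cz hz) hk (conj_mem_of_mem_normalizer hn.2 ha) hb (by group)⟩

end loc

theorem su : Su ι := ⟨hι, hS, fun y hy => by
  have hH : 𝐂[ι y] ≤ 𝐂[ι (y * y)] := fun g hg => mem_cent1_iff.2 (by
    rw [map_mul, ← mul_assoc, mem_cent1_iff.1 hg, mul_assoc, mem_cent1_iff.1 hg, mul_assoc])
  have := sd_of_mul (K := piCoreOf {2}ᶜ 𝐂[ι (y * y)] ⊓ 𝐂[ι y]) (P := ι.range ⊓ 𝐂[ι y]) (M := 𝐂[ι y])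
    ⟨inf_le_right, norms_inf (hH.trans (piCoreOf_norm _ _)) le_normalizer⟩ ((piCoreOf_piGrp _ _).inf_left _)
    inf_le_right (hS.piGrp.inf_left _) fun g hg => by
      obtain ⟨k, hk, n, hn, rfl, e⟩ := fusH hι hS (sq_sq y) hy (hH hg)
      have e1 : k * n * ι y * (k * n)⁻¹ = ι y := by rw [mem_cent1_iff.1 hg, mul_inv_cancel_right]
      have e2 := e _ ⟨y, rfl⟩ (e1.symm ▸ ⟨y, rfl⟩)
      rw [e1] at e2
      obtain ⟨i, -, h⟩ := act hι hS hn.2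
      obtain ⟨k', hk', x, rfl⟩ := of_act_zero hι hS (sq_sq y) hy (act_fix (hk1 hι) h hy e2)
      have e3 := cancel hS (le_cz (sq_sq y)) hk' (a := ι x * ι y * (ι x)⁻¹) ⟨x * y * x⁻¹, by simp⟩ ⟨y, rfl⟩
        (Eq.trans (by group) e2)
      have hx : ι x ∈ 𝐂[ι y] := mem_cent1_iff.2 (mul_inv_eq_iff_eq_mul.1 e3)
      rw [← mul_assoc] at hg ⊢
      exact ⟨_, ⟨mul_mem hk hk', ((𝐂[ι y]).mul_mem_cancel_right hx).1 hg⟩, _, ⟨⟨x, rfl⟩, hx⟩, rfl⟩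
  refine ⟨this.1, this.2.trans ?_⟩
  have e : ι.range ⊓ 𝐂[ι y] = (𝐂[y]).map ι := by
    ext a
    constructor
    · rintro ⟨⟨x, rfl⟩, hx⟩
      exact mem_map_of_mem ι (mem_cent1_iff.2 (hι (by rw [map_mul, map_mul]; exact mem_cent1_iff.1 hx)))
    · rintro ⟨x, hx, rfl⟩
      exact ⟨⟨x, rfl⟩, mem_cent1_iff.2 (by rw [← map_mul, ← map_mul, mem_cent1_iff.1 hx])⟩
  rw [e, card_map_of_injective' hι, ← card_cent y hy, ← Nat.card_eq_fintype_card]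
  exact Nat.card_congr (Equiv.subtypeEquivRight fun x => mem_cent1_iff)⟩

theorem exists_n3 [IsSimpleGroup G] : ∃ n, ∃ i < 15, Act ι n i ∧ ¬ 3 ∣ i := by
  by_contra hc
  push Not at hc
  have h1 : ∀ g, ι z0 * (g * ι z0 * g⁻¹) ∈ piCoreOf {2}ᶜ (⊤ : Subgroup G) := fun g => by
    refine zstar_in hS ⟨z0, rfl⟩ (by rw [← map_mul, z0_sq, map_one]) (fun g hg ⟨y, hy⟩ => ?_) (mem_top g)
    obtain ⟨n, hn, e⟩ := inv_fus hι hS hg z0_sq hy.symm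
    obtain ⟨i, hi, h⟩ := act hι hS hn.2
    rw [← hy, ← e, act_sq h z0_sq, δ_three _ hi (hc n i hi h) _ z0_sq]
  have h0 : ι z0 ≠ 1 := fun h => z_ne.1 ((map_eq_one_iff ι hι).1 h)
  rcases (normal_piCoreOf_top (G := G) {2}ᶜ).eq_bot_or_eq_top with h | h
  · have h2 : ι z0 ∈ center G := mem_center_iff.2 fun g => by
      have := h1 g
      rw [h, mem_bot, mul_eq_one_iff_inv_eq, ← map_inv, inv_eq_of_mul_eq_one_right z0_sq,
        eq_mul_inv_iff_mul_eq] at this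
      exact this.symm
    rcases (inferInstance : (center G).Normal).eq_bot_or_eq_top with h | h
    · exact h0 (mem_bot.1 (h ▸ h2))
    · refine z_ne.1 (y0_sq ▸ sq_of_cen y0 fun y => hι ?_)
      rw [map_mul, map_mul]
      exact mem_center_iff.1 (h ▸ mem_top _) _
  · exact h0 (eq_one_of hS (M := ⊤) (h.ge (mem_top _)) ⟨z0, rfl⟩)

theorem fus [IsSimpleGroup G] {x y : T0} (h : g * ι x * g⁻¹ = ι y) : ∃ n ∈ 𝐍(ι.range), n * ι x * n⁻¹ = ι y := by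
  by_cases hx : x * x = 1
  · obtain ⟨n, hn, e⟩ := inv_fus hι hS (mem_top g) hx h
    exact ⟨n, hn.2, e⟩
  obtain ⟨n, hn, e⟩ := inv_fus hι hS (mem_top g) (sq_sq x) (sq_conj hι h)
  have hg : n⁻¹ * g ∈ 𝐂[ι (x * x)] := mem_cent1_iff.2 (by
    calc n⁻¹ * g * ι (x * x) = n⁻¹ * (g * ι (x * x) * g⁻¹) * g := by group
      _ = _ := by rw [sq_conj hι h, ← e]; group)
  obtain ⟨k, -, m, hm, -, e'⟩ := fusH hι hS (sq_sq x) hx hg
  have e1 : n⁻¹ * g * ι x * (n⁻¹ * g)⁻¹ = n⁻¹ * ι y * n := by rw [← h]; group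
  have := e' _ ⟨x, rfl⟩ (e1 ▸ conj_inv_mem_of_mem_normalizer hn.2 ⟨y, rfl⟩)
  refine ⟨n * m, mul_mem hn.2 hm.2, ?_⟩
  calc n * m * ι x * (n * m)⁻¹ = n * (m * ι x * m⁻¹) * n⁻¹ := by group
    _ = _ := by rw [this, e1]; group

theorem s3 [IsSimpleGroup G] (h5 : ∀ n, ∀ i < 15, Act ι n i → 5 ∣ i) : ∃ d, S3 ι d := by
  obtain ⟨n, i, hi, h, h3⟩ := exists_n3 hι hS
  obtain ⟨j, rfl⟩ := h5 n i hi h
  refine ⟨n ^ j, su hι hS, act_congr (act_pow h j) ?_, fun g x y e => ?_, ?_⟩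
  · have : j < 3 := by omega
    interval_cases j <;> simp_all
  · obtain ⟨n, hn, e⟩ := fus hι hS e
    obtain ⟨i, hi, h⟩ := act hι hS hn
    obtain ⟨j, rfl⟩ := h5 n i hi h
    obtain ⟨z, hz, e'⟩ := h x
    exact ⟨j, by omega, z, hz, hι (e.symm.trans e')⟩
  · have := sd_of_mul (piCoreOf_normalIn {2}ᶜ 𝐂[ι z0]) (piCoreOf_piGrp _ _) (le_cz z0_sq) hS.piGrp fun g hg => by
      obtain ⟨k, hk, n, hn, rfl⟩ := frat hι hS z0_sq z_ne.1 hg
      obtain ⟨j, hj, h⟩ := actH hι hS z0_sq z_ne.1 hn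
      have := h5 n _ (by omega) h
      obtain ⟨k', hk', x, rfl⟩ := of_act_zero hι hS z0_sq z_ne.1 (act_congr h (j := 0) (by omega))
      exact ⟨_, mul_mem hk hk', _, ⟨x, rfl⟩, (mul_assoc _ _ _).symm⟩
    rwa [← Nat.card_congr (MonoidHom.ofInjective hι).toEquiv, card_T0] at this

theorem s15 {d : G} (ho : Odd (orderOf d)) (hd : ∀ x, d * ι x * d⁻¹ = ι (δ x)) : S15 ι d := by
  have h1 : Act ι d 1 := fun x => ⟨1, mul_one 1, by rw [mul_one, hd]; rfl⟩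
  have hp := piElt_two_compl.2 ho
  refine ⟨su hι hS, ho, hd, odd_cent hι hS z0_sq z_ne.1
    (cent_of_act_zero (act_congr (act_pow h1 15) rfl) (piElt_two_compl.1 (hp.pow _))) (hp.pow _), fun g hg => ?_⟩
  obtain ⟨k, hk, n, hn, rfl⟩ := frat hι hS z0_sq z_ne.1 hg
  obtain ⟨j, hj, h⟩ := actH hι hS z0_sq z_ne.1 hn
  obtain ⟨i, hi, h'⟩ := act hι hS (mul_mem hn.2 (inv_mem (act_norm (act_pow h1 (3 * j)))))
  have h2 := act_mul h' (act_pow h1 (3 * j))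
  rw [inv_mul_cancel_right] at h2
  have := act_uniq (hk1 hι) h h2
  obtain ⟨k', hk', x, e⟩ := of_act_zero hι hS z0_sq z_ne.1 (act_congr h' (j := 0) (by omega))
  exact ⟨_, mul_mem hk hk', x, j, hj, by rw [mul_assoc k, ← e]; group⟩

end CA.Ly.St

namespace CA.Ly

open Cfsg Subgroup CA CA.Blk CA.Ly.Au CA.Ly.St

theorem setup {G : Type*} [Group G] [Finite G] [IsSimpleGroup G] (S : Sylow 2 G)
    (h : CA.Alp.IsU34 (S : Subgroup G)) :
    (∃ (ι : T0 →* G) (d : G), S3 ι d) ∨ ∃ (ι : T0 →* G) (d : G), S15 ι d := by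
  obtain ⟨e⟩ := equiv_T0 h
  let ι := (S : Subgroup G).subtype.comp e.toMonoidHom
  have hι : Function.Injective ι := (S : Subgroup G).subtype_injective.comp e.injective
  have hS : SylowIn 2 ι.range ⊤ := by
    rw [MonoidHom.range_comp, MonoidHom.range_eq_top.2 e.surjective, ← MonoidHom.range_eq_map, range_subtype]
    exact sylowIn_top S
  clear_value ι
  by_cases h5 : ∀ n, ∀ i < 15, Act ι n i → 5 ∣ i
  · exact Or.inl ⟨ι, s3 hι hS h5⟩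
  push Not at h5
  obtain ⟨m, j, hj, hm, h5⟩ := h5
  obtain ⟨n, i, hi, hn, h3⟩ := exists_n3 hι hS
  obtain ⟨a, -, b, -, e⟩ := crt i hi j hj h3 h5
  have h1 := act_odd_part hS (act_congr (j := 1) (act_mul (act_pow hn (5 * a)) (act_pow hm (3 * b))) e)
  obtain ⟨c, hc⟩ := exists_coord hι h1
  refine Or.inr ⟨ι.comp c.toMonoidHom, _, s15 (fun _ _ h => c.injective (hι h)) ?_ (piElt_two_compl.1 (constt_piElt _ _)) hc⟩
  rwa [MonoidHom.range_comp, MonoidHom.range_eq_top.2 c.surjective, ← MonoidHom.range_eq_map]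

end CA.Ly
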