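/-
Lyons' theorem.
-/
import Cfsg.Agent.Lib.Ly.End15
import Cfsg.Agent.Lib.Ly.Case3
import Cfsg.Agent.Lib.Ly.Setup

set_option autoImplicit false

namespace CA.Ly

open Cfsg CA CA.Alp

theorem isU34_of_equiv {A B : Type*} [Group A] [Group B] (h : IsU34 A) (e : A ≃* B) : IsU34 B := by
  obtain ⟨c, a0, a1, b0, b1, z0, z1, h, e0, e1, e2⟩ := h
  exact ⟨(Nat.card_congr e.toEquiv).symm.trans c, _, _, _, _, _, _, h.map e.toMonoidHom,
    e.map_ne_one_iff.2 e0, e.map_ne_one_iff.2 e1, e.injective.ne e2⟩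

theorem lyons {G : Type*} [Group G] [Finite G] [IsSimpleGroup G] (S : Sylow 2 G) (h : IsU34 (S : Subgroup G)) :
    Nonempty (G ≃* Gam) := by
  rcases setup S h with ⟨ι, d, h⟩ | ⟨ι, d, h⟩
  exacts [h.false.elim, h.recog15]

end CA.Ly
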