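/-
Lyons' theorem, arithmetic part: a verified search over decomposition patterns followed by a verified
branch and bound over the degrees.
-/
import Mathlib

set_option autoImplicit false

namespace CA.Ly

/-- the type of a character -/
structure Kd where
  (w a b c p r q1 q2 q3 res lo hi : ℤ)
  deriving DecidableEq

/-- Gram budgets -/
structure Bud where
  (g11 g12 g13 g22 g23 g33 p r : ℤ)
  deriving DecidableEq

namespace Bud
def sub (R : Bud) (k : Kd) : Bud :=
  ⟨R.g11 - k.w * k.a * k.a, R.g12 - k.w * k.a * k.b, R.g13 - k.w * k.a * k.c, R.g22 - k.w * k.b * k.b,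
    R.g23 - k.w * k.b * k.c, R.g33 - k.w * k.c * k.c, R.p - k.p, R.r - k.r⟩
def add (R : Bud) (k : Kd) : Bud :=
  ⟨R.g11 + k.w * k.a * k.a, R.g12 + k.w * k.a * k.b, R.g13 + k.w * k.a * k.c, R.g22 + k.w * k.b * k.b,
    R.g23 + k.w * k.b * k.c, R.g33 + k.w * k.c * k.c, R.p + k.p, R.r + k.r⟩
def zero : Bud := ⟨0, 0, 0, 0, 0, 0, 0, 0⟩
def form (R : Bud) (x y t : ℤ) : ℤ :=
  R.g11 * x * x + R.g22 * y * y + R.g33 * t * t + 2 * (R.g12 * x * y + R.g13 * x * t + R.g23 * y * t)
def ng (R : Bud) (x y t : ℤ) : Bool := decide (R.form x y t < 0)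
def bad (R : Bud) : Bool :=
  decide (R.p < 0) || decide (R.r < 0) || decide (R.g11 < 0) || decide (R.g22 < 0) || decide (R.g33 < 0) ||
  R.ng (R.g22 * R.g33 - R.g23 * R.g23) (R.g13 * R.g23 - R.g12 * R.g33) (R.g12 * R.g23 - R.g13 * R.g22) ||
  R.ng (R.g13 * R.g23 - R.g12 * R.g33) (R.g11 * R.g33 - R.g13 * R.g13) (R.g12 * R.g13 - R.g11 * R.g23) ||
  R.ng (R.g12 * R.g23 - R.g13 * R.g22) (R.g12 * R.g13 - R.g11 * R.g23) (R.g11 * R.g22 - R.g12 * R.g12) ||
  R.ng R.g12 (-R.g11 - 1) 0 || R.ng R.g13 0 (-R.g11 - 1) || R.ng 0 R.g23 (-R.g22 - 1) ||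
  R.ng (R.g22 + 1) (-R.g12) 0 || R.ng (R.g33 + 1) 0 (-R.g13) || R.ng 0 (R.g33 + 1) (-R.g23) ||
  R.ng R.g12 (-R.g11) 0 || R.ng R.g13 0 (-R.g11) || R.ng 0 R.g23 (-R.g22)
def Good (R : Bud) : Prop := 0 ≤ R.p ∧ 0 ≤ R.r ∧ ∀ x y t, 0 ≤ R.form x y t

theorem Good.not_bad {R : Bud} (h : R.Good) : R.bad = false := by
  obtain ⟨h1, h2, h3⟩ := h
  have a1 := h3 1 0 0
  have a2 := h3 0 1 0
  have a3 := h3 0 0 1
  simp only [form] at a1 a2 a3
  have e : ∀ x y t, R.ng x y t = false := fun x y t => by simp [ng, h3]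
  simp only [bad, e, Bool.or_false, Bool.or_eq_false_iff, decide_eq_false_iff_not]
  omega

theorem add_sub (R : Bud) (k : Kd) : (R.add k).sub k = R := by simp [add, sub]
end Bud

/-- nonnegativity of the weights -/
def Kd.Ok (k : Kd) : Prop := 0 ≤ k.w ∧ 0 ≤ k.p ∧ 0 ≤ k.r

def gram : List Kd → Bud
  | [] => .zero
  | k :: L => (gram L).add k

theorem good_gram {L : List Kd} (h : ∀ k ∈ L, k.Ok) : (gram L).Good := by
  induction L with
  | nil => exact ⟨le_rfl, le_rfl, fun x y t => by simp [gram, Bud.zero, Bud.form]⟩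
  | cons k L ih =>
    obtain ⟨a1, a2, a3⟩ := ih fun k hk => h k (.tail _ hk)
    obtain ⟨b1, b2, b3⟩ := h k (.head _)
    refine ⟨add_nonneg a1 b2, add_nonneg a2 b3, fun x y t => ?_⟩
    have : (gram (k :: L)).form x y t = (gram L).form x y t + k.w * (k.a * x + k.b * y + k.c * t) ^ 2 := by
      simp only [gram, Bud.add, Bud.form]; ring
    rw [this]; exact add_nonneg (a3 x y t) (mul_nonneg b1 (sq_nonneg _))

theorem gram_perm {L M : List Kd} (h : L.Perm M) : gram L = gram M := by
  induction h with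
  | nil => rfl
  | cons _ _ ih => simp only [gram, ih]
  | swap => simp only [gram, Bud.add, Bud.mk.injEq]; refine ⟨?_, ?_, ?_, ?_, ?_, ?_, ?_, ?_⟩ <;> ring
  | trans _ _ h1 h2 => exact h1.trans h2

/-- domains -/
inductive Dm
  | both (p q : ℤ)
  | ge (lo : ℤ)
  | le (hi : ℤ)
  | iv (lo hi : ℤ)

namespace Dm
def mem : Dm → ℤ → Prop
  | both p q, x => p ≤ x ∨ x ≤ q
  | ge lo, x => lo ≤ x
  | le hi, x => x ≤ hi
  | iv lo hi, x => lo ≤ x ∧ x ≤ hi
def split : Dm → ℤ → ℤ → Dm × Dm
  | both p q, _, _ => (ge p, le q)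
  | ge lo, c, md => (iv lo c, ge (c + md))
  | le hi, c, md => (iv c hi, le (c - md))
  | iv lo hi, c, md => if 0 < lo then (iv lo c, iv (c + md) hi) else (iv c hi, iv lo (c - md))

theorem gap {x c md : ℤ} (hm : 0 < md) (h : x % md = c % md) : (x ≤ c ∨ c + md ≤ x) ∧ (c ≤ x ∨ x ≤ c - md) := by
  obtain ⟨k, hk⟩ : md ∣ x - c := Int.dvd_of_emod_eq_zero (Int.emod_eq_emod_iff_emod_sub_eq_zero.1 h)
  rcases lt_trichotomy k 0 with h | h | h
  · have : md * k ≤ -md := by nlinarith
    omega
  · subst h; omega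
  · have : md ≤ md * k := by nlinarith
    omega

theorem mem_split {d : Dm} {x c md : ℤ} (hm : 0 < md) (h : x % md = c % md) (hx : d.mem x) :
    (d.split c md).1.mem x ∨ (d.split c md).2.mem x := by
  have := gap hm h
  cases d with
  | both p q => exact hx
  | ge lo => simp only [mem, split] at *; omega
  | le hi => simp only [mem, split] at *; omega
  | iv lo hi => simp only [mem, split] at *; split_ifs <;> simp only [mem] <;> omega

/-- lower bound for `A * x` -/
def lb (A : ℤ) : Dm → Option ℤ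
  | both _ _ => if A = 0 then some 0 else none
  | ge lo => if 0 ≤ A then some (A * lo) else none
  | le hi => if A ≤ 0 then some (A * hi) else none
  | iv lo hi => if 0 ≤ A then some (A * lo) else some (A * hi)

theorem lb_le {A : ℤ} {d : Dm} {m x : ℤ} (h : d.lb A = some m) (hx : d.mem x) : m ≤ A * x := by
  cases d <;> simp only [lb, mem] at h hx <;> split_ifs at h <;> simp only [Option.some.injEq] at h <;>
    subst h
  · simp [*]
  · exact mul_le_mul_of_nonneg_left hx ‹_›
  · exact mul_le_mul_of_nonpos_left hx ‹_›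
  · exact mul_le_mul_of_nonneg_left hx.1 ‹_›
  · exact mul_le_mul_of_nonpos_left hx.2 (by omega)

/-- lower bound `n / d` for `A / x`; `d = 0` signals failure -/
def rb (A : ℤ) : Dm → ℤ × ℤ
  | both p q => if 0 < p ∧ q < 0 then (if 0 ≤ A then (-A, -q) else (A, p)) else (0, 0)
  | ge lo => if 0 < lo then (if 0 ≤ A then (0, 1) else (A, lo)) else (0, 0)
  | le hi => if hi < 0 then (if 0 ≤ A then (-A, -hi) else (0, 1)) else (0, 0)
  | iv lo hi => if 0 < lo then (if 0 ≤ A then (A, hi) else (A, lo))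
      else if hi < 0 then (if 0 ≤ A then (-A, -hi) else (-A, -lo)) else (0, 0)

theorem h1 {A x y : ℚ} (hA : 0 ≤ A) (hx : 0 < x) (h : x ≤ y) : A / y ≤ A / x :=
  div_le_div_of_nonneg_left hA hx h
theorem h2 {A x y : ℚ} (hA : A ≤ 0) (hx : 0 < x) (h : x ≤ y) : A / x ≤ A / y := by
  have := h1 (neg_nonneg.2 hA) hx h
  rw [neg_div, neg_div] at this; linarith
theorem h3 {A x y : ℚ} (hA : 0 ≤ A) (hy : y < 0) (h : x ≤ y) : -A / -y ≤ A / x := by
  have := h2 (neg_nonpos.2 hA) (neg_pos.2 hy) (neg_le_neg h)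
  rwa [neg_div_neg_eq A x] at this
theorem h4 {A x y : ℚ} (hA : A ≤ 0) (hy : y < 0) (h : x ≤ y) : -A / -x ≤ A / y := by
  have := h1 (neg_nonneg.2 hA) (neg_pos.2 hy) (neg_le_neg h)
  rwa [neg_div_neg_eq A y] at this

theorem rb_le {A : ℤ} {d : Dm} {x : ℤ} (h : 0 < (d.rb A).2) (hx : d.mem x) :
    ((d.rb A).1 : ℚ) / (d.rb A).2 ≤ A / x := by
  cases d <;> simp only [rb, mem] at h hx ⊢ <;> split_ifs at h ⊢ <;> simp only [lt_self_iff_false] at h <;>
    push_cast
  · rename_i p q h1 h2
    have hA : (0 : ℚ) ≤ A := by exact_mod_cast h2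
    have hq : (q : ℚ) < 0 := by exact_mod_cast h1.2
    rcases hx with hx | hx
    · have : (0 : ℚ) ≤ x := by exact_mod_cast h1.1.le.trans hx
      exact (div_nonpos_of_nonpos_of_nonneg (by linarith) (by linarith)).trans (div_nonneg hA this)
    · exact h3 hA hq (by exact_mod_cast hx)
  · rename_i p q h1 h2'
    have hA : (A : ℚ) ≤ 0 := by exact_mod_cast (not_le.1 h2').le
    have hp : (0 : ℚ) < p := by exact_mod_cast h1.1
    rcases hx with hx | hx
    · exact h2 hA hp (by exact_mod_cast hx)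
    · have : (x : ℚ) ≤ 0 := by exact_mod_cast hx.trans h1.2.le
      exact (div_nonpos_of_nonpos_of_nonneg hA hp.le).trans (div_nonneg_of_nonpos hA this)
  · rename_i lo h1 h2
    rw [zero_div]; exact div_nonneg (by exact_mod_cast h2) (by exact_mod_cast h1.le.trans hx)
  · rename_i lo h1 h2'
    exact h2 (by exact_mod_cast (not_le.1 h2').le) (by exact_mod_cast h1) (by exact_mod_cast hx)
  · rename_i hi h1 h2
    exact h3 (by exact_mod_cast h2) (by exact_mod_cast h1) (by exact_mod_cast hx)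
  · rename_i hi h1 h2
    rw [zero_div]
    exact div_nonneg_of_nonpos (by exact_mod_cast (not_le.1 h2).le) (by exact_mod_cast hx.trans h1.le)
  · rename_i lo hi h1' h2
    exact h1 (by exact_mod_cast h2) (by exact_mod_cast h1'.trans_le hx.1) (by exact_mod_cast hx.2)
  · rename_i lo hi h1 h2'
    exact h2 (by exact_mod_cast (not_le.1 h2').le) (by exact_mod_cast h1) (by exact_mod_cast hx.1)
  · rename_i lo hi _ h1 h2
    exact h3 (by exact_mod_cast h2) (by exact_mod_cast h1) (by exact_mod_cast hx.2)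
  · rename_i lo hi _ h1 h2
    exact h4 (by exact_mod_cast (not_le.1 h2).le) (by exact_mod_cast hx.2.trans_lt h1) (by exact_mod_cast hx.1)
end Dm

/-- `n` characters of type `k` with degrees in `d` -/
structure Sl where
  k : Kd
  n : ℕ
  d : Dm

/-- parameters of a problem -/
structure Par where
  (md l1 l2 l3 c1 c2 c3 e1 e2 e3 dn elo ehi : ℤ)

abbrev Asg := List (Sl × List ℤ)
def sA (F : Kd → ℤ → ℚ) (A : Asg) : ℚ := (A.map fun e => (e.2.map (F e.1.k)).sum).sum
def Valid (md : ℤ) (A : Asg) : Prop :=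
  ∀ e ∈ A, e.2.length = e.1.n ∧ ∀ x ∈ e.2, e.1.d.mem x ∧ x % md = e.1.k.res % md
def Kd.lin (k : Kd) (a b c : ℤ) : ℤ := k.w * (a * k.a + b * k.b + c * k.c)
def Kd.rc (k : Kd) (a b c : ℤ) : ℤ := a * k.q1 + b * k.q2 + c * k.q3
/-- the equations -/
def Eqs (P : Par) (Φ : (Kd → ℤ → ℚ) → ℚ) : Prop := ∃ ε : ℚ, (0 < P.dn ∧ (P.elo : ℚ) < P.dn * ε ∧
    (P.ehi = 0 ∨ P.dn * ε < P.ehi)) ∧ ∀ a b c : ℤ,
  Φ (fun k x => (k.lin a b c : ℚ) * x) = (a * P.l1 + b * P.l2 + c * P.l3 : ℤ) ∧
  Φ (fun k x => (k.rc a b c : ℚ) / x) =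
    (a * P.c1 + b * P.c2 + c * P.c3 : ℤ) - ε * (a * P.e1 + b * P.e2 + c * P.e3 : ℤ)

theorem sA_cons (F : Kd → ℤ → ℚ) (e : Sl × List ℤ) (A : Asg) :
    sA F (e :: A) = (e.2.map (F e.1.k)).sum + sA F A := by simp [sA]
theorem valid_cons {md : ℤ} {e : Sl × List ℤ} {A : Asg} : Valid md (e :: A) ↔
    (e.2.length = e.1.n ∧ ∀ x ∈ e.2, e.1.d.mem x ∧ x % md = e.1.k.res % md) ∧ Valid md A := by
  simp [Valid]

theorem le_sum {X : List ℤ} {f : ℤ → ℚ} {m : ℚ} (h : ∀ x ∈ X, m ≤ f x) : X.length * m ≤ (X.map f).sum := by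
  have := List.card_nsmul_le_sum (X.map f) m (by simpa using h)
  simpa using this

def sumL (a b c : ℤ) : List Sl → Option ℤ
  | [] => some 0
  | s :: S => match s.d.lb (s.k.lin a b c), sumL a b c S with
    | some m, some t => some (s.n * m + t)
    | _, _ => none

theorem sumL_le {md a b c : ℤ} {A : Asg} (hA : Valid md A) {t : ℤ} (h : sumL a b c (A.map (·.1)) = some t) :
    (t : ℚ) ≤ sA (fun k x => (k.lin a b c : ℚ) * x) A := by
  induction A generalizing t with
  | nil => simp only [List.map_nil, sumL, Option.some.injEq] at h; subst h; simp [sA]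
  | cons e A ih =>
    rw [valid_cons] at hA
    simp only [List.map_cons, sumL] at h
    split at h
    · rename_i m t' h1 h2
      simp only [Option.some.injEq] at h; subst h
      rw [sA_cons]
      have := le_sum (X := e.2) (f := fun x => (e.1.k.lin a b c : ℚ) * x) (m := m) fun x hx => by
        exact_mod_cast Dm.lb_le h1 (hA.1.2 x hx).1
      have := ih hA.2 h2
      rw [← hA.1.1]; push_cast; linarith
    · exact absurd h (by simp)

def sumR (a b c : ℤ) : List Sl → Option (ℤ × ℤ)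
  | [] => some (0, 1)
  | s :: S => match s.d.rb (s.k.rc a b c), sumR a b c S with
    | (n, d), some (n', d') => if 0 < d then some (s.n * n * d' + n' * d, d * d') else none
    | _, none => none

theorem sumR_le {md a b c : ℤ} {A : Asg} (hA : Valid md A) {t : ℤ × ℤ} (h : sumR a b c (A.map (·.1)) = some t) :
    0 < t.2 ∧ (t.1 : ℚ) / t.2 ≤ sA (fun k x => (k.rc a b c : ℚ) / x) A := by
  induction A generalizing t with
  | nil => simp only [List.map_nil, sumR, Option.some.injEq] at h; subst h; simp [sA]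
  | cons e A ih =>
    rw [valid_cons] at hA
    simp only [List.map_cons, sumR] at h
    split at h
    · rename_i n d n' d' h1 h2
      split_ifs at h with hd
      simp only [Option.some.injEq] at h; subst h
      rw [sA_cons]
      have := le_sum (X := e.2) (f := fun x => (e.1.k.rc a b c : ℚ) / x) (m := (n : ℚ) / d) fun x hx => by
        have := Dm.rb_le (A := e.1.k.rc a b c) (by rw [h1]; exact hd) (hA.1.2 x hx).1
        rwa [h1] at this
      obtain ⟨i1, i2⟩ := ih hA.2 h2
      refine ⟨mul_pos hd i1, ?_⟩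
      have hd1 : (d : ℚ) ≠ 0 := by exact_mod_cast hd.ne'
      have hd2 : (d' : ℚ) ≠ 0 := by exact_mod_cast i1.ne'
      have : ((e.1.n * n * d' + n' * d : ℤ) : ℚ) / (d * d' : ℤ) = e.1.n * ((n : ℚ) / d) + n' / d' := by
        push_cast; field_simp
      rw [this, ← hA.1.1]; linarith
    · exact absurd h (by simp)

def leafL (P : Par) (a b c : ℤ) (S : List Sl) : Bool :=
  match sumL a b c S with
  | some t => decide (a * P.l1 + b * P.l2 + c * P.l3 < t)
  | none => false
def tstA (C E n d dn elo ehi : ℤ) : Bool :=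
  (decide (0 ≤ E) && decide ((C * dn - elo * E) * d < n * dn)) ||
  (decide (0 < E) && decide ((C * dn - elo * E) * d ≤ n * dn)) ||
  (decide (E < 0) && decide (ehi ≠ 0) && decide ((C * dn - ehi * E) * d ≤ n * dn))
def leafR (P : Par) (a b c : ℤ) (S : List Sl) : Bool :=
  match sumR a b c S with
  | some (n, d) => tstA (a * P.c1 + b * P.c2 + c * P.c3) (a * P.e1 + b * P.e2 + c * P.e3) n d P.dn P.elo P.ehi
  | none => false

theorem leafL_sound {P : Par} {a b c : ℤ} {A : Asg} (hA : Valid P.md A) (he : Eqs P (sA · A))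
    (h : leafL P a b c (A.map (·.1)) = true) : False := by
  unfold leafL at h
  split at h
  · rename_i t ht
    have := sumL_le hA ht
    obtain ⟨ε, -, he⟩ := he
    replace this := this.trans_eq (he a b c).1
    simp only [decide_eq_true_eq] at h
    exact absurd (by exact_mod_cast this) (not_le.2 h)
  · exact absurd h (by simp)

theorem leafR_sound {P : Par} {a b c : ℤ} {A : Asg} (hA : Valid P.md A) (he : Eqs P (sA · A))
    (h : leafR P a b c (A.map (·.1)) = true) : False := by
  unfold leafR at h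
  split at h
  · rename_i n d ht
    obtain ⟨h0, this⟩ := sumR_le hA ht
    obtain ⟨ε, hε, he⟩ := he
    replace this := this.trans_eq (he a b c).2
    have h0' : (0 : ℚ) < d := by exact_mod_cast h0
    rw [div_le_iff₀ h0'] at this
    simp only [tstA, Bool.or_eq_true, Bool.and_eq_true, decide_eq_true_eq] at h this
    generalize a * P.e1 + b * P.e2 + c * P.e3 = E at *
    generalize a * P.c1 + b * P.c2 + c * P.c3 = C at *
    obtain ⟨e0, e1, e2⟩ := hε
    have e0 : (0 : ℚ) < P.dn := by exact_mod_cast e0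
    have k := mul_le_mul_of_nonneg_right this e0.le
    rcases h with (⟨h1, h2⟩ | ⟨h1, h2⟩) | ⟨⟨h1, h3⟩, h2⟩
    · have h1 : (0 : ℚ) ≤ E := by exact_mod_cast h1
      have h2 : ((C : ℚ) * P.dn - P.elo * E) * d < n * P.dn := by exact_mod_cast h2
      nlinarith [mul_nonneg (mul_nonneg (sub_pos.2 e1).le h1) h0'.le]
    · have h1 : (0 : ℚ) < E := by exact_mod_cast h1
      have h2 : ((C : ℚ) * P.dn - P.elo * E) * d ≤ n * P.dn := by exact_mod_cast h2
      nlinarith [mul_pos (mul_pos (sub_pos.2 e1) h1) h0']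
    · have h1 : (0 : ℚ) < -E := by exact_mod_cast neg_pos.2 h1
      have h2 : ((C : ℚ) * P.dn - P.ehi * E) * d ≤ n * P.dn := by exact_mod_cast h2
      nlinarith [mul_pos (mul_pos (sub_pos.2 (e2.resolve_left h3)) h1) h0']
  · exact absurd h (by simp)

def splitAt (md : ℤ) : List Sl → ℕ → ℤ → Option (List Sl × List Sl)
  | [], _, _ => none
  | s :: S, 0, c => if c % md = s.k.res % md then
      some (⟨s.k, 1, (s.d.split c md).1⟩ :: if s.n = 1 then S else ⟨s.k, s.n - 1, s.d⟩ :: S,
        ⟨s.k, s.n, (s.d.split c md).2⟩ :: S) else none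
  | s :: S, i + 1, c => match splitAt md S i c with
    | some (S1, S2) => some (s :: S1, s :: S2)
    | none => none

theorem splitAt_sound {md : ℤ} (hm : 0 < md) {A : Asg} (hA : Valid md A) {i : ℕ} {c : ℤ} {S1 S2 : List Sl}
    (h : splitAt md (A.map (·.1)) i c = some (S1, S2)) :
    ∃ A' : Asg, (A'.map (·.1) = S1 ∨ A'.map (·.1) = S2) ∧ Valid md A' ∧ ∀ F, sA F A' = sA F A := by
  induction A generalizing i S1 S2 with
  | nil => exact absurd h (by simp [splitAt])
  | cons e A ih =>
    rw [valid_cons] at hA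
    cases i with
    | succ i =>
      simp only [List.map_cons, splitAt] at h
      split at h
      · rename_i T1 T2 ht
        simp only [Option.some.injEq, Prod.mk.injEq] at h
        obtain ⟨A', a1, a2, a3⟩ := ih hA.2 ht
        refine ⟨e :: A', ?_, valid_cons.2 ⟨hA.1, a2⟩, fun F => by rw [sA_cons, sA_cons, a3]⟩
        rw [← h.1, ← h.2, List.map_cons]
        exact a1.imp (fun a => by rw [a]) fun a => by rw [a]
      · exact absurd h (by simp)
    | zero =>
      simp only [List.map_cons, splitAt] at h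
      split_ifs at h with hc hn
      all_goals
        simp only [Option.some.injEq, Prod.mk.injEq] at h
        by_cases hx : ∃ x ∈ e.2, (e.1.d.split c md).1.mem x
        swap
        · refine ⟨(⟨e.1.k, e.1.n, (e.1.d.split c md).2⟩, e.2) :: A, .inr h.2,
            valid_cons.2 ⟨⟨hA.1.1, fun x hx' => ⟨?_, (hA.1.2 x hx').2⟩⟩, hA.2⟩, fun F => by rw [sA_cons, sA_cons]⟩
          exact (Dm.mem_split hm ((hA.1.2 x hx').2.trans hc.symm) (hA.1.2 x hx').1).resolve_left
            fun h' => hx ⟨x, hx', h'⟩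
        obtain ⟨x, hx, hx1⟩ := hx
      · obtain ⟨y, hy⟩ := List.length_eq_one_iff.1 (hA.1.1.trans hn)
        rw [hy, List.mem_singleton] at hx
        refine ⟨(⟨e.1.k, 1, (e.1.d.split c md).1⟩, e.2) :: A, .inl h.1,
          valid_cons.2 ⟨⟨hA.1.1.trans hn, fun x' hx' => ⟨?_, (hA.1.2 x' hx').2⟩⟩, hA.2⟩,
          fun F => by rw [sA_cons, sA_cons]⟩
        rw [hy, List.mem_singleton] at hx'
        rwa [hx', ← hx]
      · refine ⟨(⟨e.1.k, 1, (e.1.d.split c md).1⟩, [x]) :: (⟨e.1.k, e.1.n - 1, e.1.d⟩, e.2.erase x) :: A,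
          .inl h.1, valid_cons.2 ⟨⟨rfl, fun x' hx' => ?_⟩, valid_cons.2 ⟨⟨?_, fun x' hx' =>
            hA.1.2 x' (List.mem_of_mem_erase hx')⟩, hA.2⟩⟩, fun F => ?_⟩
        · rw [List.mem_singleton] at hx'; subst hx'; exact ⟨hx1, (hA.1.2 x' hx).2⟩
        · rw [List.length_erase_of_mem hx, hA.1.1]
        · rw [sA_cons, sA_cons, sA_cons, ((List.perm_cons_erase hx).map (F e.1.k)).sum_eq]
          simp [add_assoc]

/-- the branch and bound checker, reading its certificate from the number `n` -/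
def chk (P : Par) : ℕ → List Sl → ℕ → Option ℕ
  | 0, _, _ => none
  | f + 1, S, n =>
    if n % 4 = 2 then
      match splitAt P.md S (n / 4 % 16) ((n / 64 % 1048576 : ℕ) - 524288) with
      | some (S1, S2) => match chk P f S1 (n >>> 26) with
        | some m => chk P f S2 m
        | none => none
      | none => none
    else if (if n % 4 = 0 then leafL else leafR) P ((n / 4 % 256 : ℕ) - 128) ((n / 1024 % 256 : ℕ) - 128)
      ((n / 262144 % 256 : ℕ) - 128) S then some (n >>> 26) else none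

theorem chk_sound {P : Par} (hm : 0 < P.md) (f : ℕ) : ∀ {A : Asg} {n m : ℕ}, Valid P.md A → Eqs P (sA · A) →
    chk P f (A.map (·.1)) n = some m → False := by
  induction f with
  | zero => intro A n m _ _ h; exact absurd h (by simp [chk])
  | succ f ih =>
    intro A n m hA he h
    unfold chk at h
    split_ifs at h with h1 h2 h3 h4
    · split at h
      · rename_i S1 S2 hs
        split at h
        · rename_i m' hm'
          obtain ⟨A', a1, a2, a3⟩ := splitAt_sound hm hA hs
          have he' : Eqs P (sA · A') := by rwa [funext a3]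
          rcases a1 with a1 | a1
          · exact ih a2 he' (a1 ▸ hm')
          · exact ih a2 he' (a1 ▸ h)
        · exact absurd h (by simp)
      · exact absurd h (by simp)
    · exact leafL_sound hA he h3
    · exact leafR_sound hA he h4

def inner (u : Kd) (K : Bud → ℕ → Bool) : ℕ → Bud → ℕ → Bool
  | 0, _, _ => false
  | f + 1, R, n => K R n && ((R.sub u).bad || inner u K f (R.sub u) (n + 1))

/-- the search over patterns -/
def go (lf : List (Kd × ℕ) → Bool) : List Kd → Bud → List (Kd × ℕ) → Bool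
  | [], R, S => decide (R ≠ .zero) || lf S
  | u :: U, R, S => inner u (fun R' n => go lf U R' (if n = 0 then S else (u, n) :: S)) 20 R 0

def mkS (dom : Kd → Dm) (e : Kd × ℕ) : Sl := ⟨e.1, e.2, dom e.1⟩

theorem inner_sound {u : Kd} {K : Bud → ℕ → Bool} {L : List Kd} (hu : u.Ok) (hL : ∀ k ∈ L, k.Ok) (f : ℕ) :
    ∀ (j n : ℕ), inner u K f (gram (List.replicate j u ++ L)) n = true → K (gram L) (n + j) = true := by
  induction f with
  | zero => intro j n h; exact absurd h (by simp [inner])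
  | succ f ih =>
    intro j n h
    simp only [inner, Bool.and_eq_true, Bool.or_eq_true] at h
    cases j with
    | zero => exact h.1
    | succ j =>
      simp only [List.replicate_succ, List.cons_append, gram, Bud.add_sub] at h
      rcases h.2 with h | h
      · rw [(good_gram fun k hk => ?_).not_bad] at h
        · exact absurd h (by simp)
        · rcases List.mem_append.1 hk with hk | hk
          · rwa [List.eq_of_mem_replicate hk]
          · exact hL k hk
      · have := ih j (n + 1) h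
        rwa [add_assoc, add_comm 1] at this

def sL (F : Kd → ℤ → ℚ) (L : List (Kd × ℤ)) : ℚ := (L.map fun e => F e.1 e.2).sum

theorem go_sound {md : ℤ} {dom : Kd → Dm} {lf : List (Kd × ℕ) → Bool} (U : List Kd) :
    ∀ (L : List (Kd × ℤ)) (A : Asg) (S : List (Kd × ℕ)),
    (∀ e ∈ L, e.1 ∈ U ∧ e.1.Ok ∧ (dom e.1).mem e.2 ∧ e.2 % md = e.1.res % md) →
    Valid md A → A.map (·.1) = S.map (mkS dom) → go lf U (gram (L.map (·.1))) S = true →
    ∃ (A' : Asg) (S' : List (Kd × ℕ)), lf S' = true ∧ Valid md A' ∧ A'.map (·.1) = S'.map (mkS dom) ∧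
      ∀ F, sA F A' = sA F A + sL F L := by
  induction U with
  | nil =>
    intro L A S hL hA he h
    obtain rfl : L = [] := List.eq_nil_iff_forall_not_mem.2 fun e he => by simpa using (hL e he).1
    simp only [go, List.map_nil, gram, ne_eq, not_true_eq_false, decide_false, Bool.false_or] at h
    exact ⟨A, S, h, hA, he, fun F => by simp [sL]⟩
  | cons u U ih =>
    intro L A S hL hA he h
    have hp := List.filter_append_perm (fun e : Kd × ℤ => decide (e.1 = u)) L
    set L1 := L.filter fun e => decide (e.1 = u)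
    set L2 := L.filter fun e => !decide (e.1 = u)
    have h1 : ∀ e ∈ L1, e ∈ L ∧ e.1 = u := fun e he => by simpa using List.mem_filter.1 he
    have h2 : ∀ e ∈ L2, e ∈ L ∧ e.1 ≠ u := fun e he => by simpa using List.mem_filter.1 he
    have e1 : L1.map (·.1) = List.replicate L1.length u :=
      List.eq_replicate_iff.2 ⟨by simp, fun k hk => by
        obtain ⟨e, he, rfl⟩ := List.mem_map.1 hk; exact (h1 e he).2⟩
    have hL2 : ∀ e ∈ L2, e.1 ∈ U ∧ e.1.Ok ∧ (dom e.1).mem e.2 ∧ e.2 % md = e.1.res % md :=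
      fun e he => ⟨(List.mem_cons.1 (hL e (h2 e he).1).1).resolve_left (h2 e he).2, (hL e (h2 e he).1).2⟩
    have hs : ∀ F, sL F L = ((L1.map (·.2)).map (F u)).sum + sL F L2 := fun F => by
      rw [sL, ← (hp.map _).sum_eq, List.map_append, List.sum_append, List.map_map]
      congr 2
      exact List.map_congr_left fun e he => by simp [(h1 e he).2]
    rw [go, ← gram_perm (hp.map _), List.map_append, e1] at h
    by_cases h0 : L1.length = 0
    · have := h
      rw [h0, inner, Bool.and_eq_true] at this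
      obtain ⟨A', S', a1, a2, a3, a4⟩ := ih L2 A S hL2 hA he this.1
      rw [List.length_eq_zero_iff] at h0
      exact ⟨A', S', a1, a2, a3, fun F => by simp [a4, hs, h0]⟩
    · obtain ⟨e, he0⟩ := List.exists_mem_of_length_pos (Nat.pos_of_ne_zero h0)
      have := inner_sound ((h1 e he0).2 ▸ (hL e (h1 e he0).1).2.1) (fun k hk => by
        obtain ⟨e, he, rfl⟩ := List.mem_map.1 hk; exact (hL2 e he).2.1) _ _ _ h
      rw [zero_add, if_neg h0] at this
      obtain ⟨A', S', a1, a2, a3, a4⟩ := ih L2 ((⟨u, L1.length, dom u⟩, L1.map (·.2)) :: A) _ hL2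
        (valid_cons.2 ⟨⟨by simp, fun x hx => by
          obtain ⟨e, he, rfl⟩ := List.mem_map.1 hx
          have := (hL e (h1 e he).1).2.2
          rwa [(h1 e he).2] at this⟩, hA⟩) (by rw [List.map_cons, List.map_cons, he]; rfl) this
      exact ⟨A', S', a1, a2, a3, fun F => by rw [a4, sA_cons, hs]; ring⟩

theorem gram_eq (L : List Kd) : gram L = ⟨(L.map fun k => k.w * k.a * k.a).sum, (L.map fun k => k.w * k.a * k.b).sum,
    (L.map fun k => k.w * k.a * k.c).sum, (L.map fun k => k.w * k.b * k.b).sum, (L.map fun k => k.w * k.b * k.c).sum,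
    (L.map fun k => k.w * k.c * k.c).sum, (L.map (·.p)).sum, (L.map (·.r)).sum⟩ := by
  induction L with
  | nil => rfl
  | cons k L ih => simp only [gram, ih, Bud.add, List.map_cons, List.sum_cons, add_comm]

/-- the arithmetic theorem -/
theorem arith {ι : Type*} (s : Finset ι) (k : ι → Kd) (x : ι → ℤ) (P : Par) (R : Bud) (U : List Kd) (C : List ℕ)
    (cf : List (List (Kd × ℕ))) (dom : Kd → Dm) (hm : 0 < P.md) (hgo : go (fun S => decide (S ∈ cf)) U R [] = true)
    (hck : (cf.all fun S => C.any fun n => (chk P 100 (S.map (mkS dom)) n).isSome) = true)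
    (hk : ∀ i ∈ s, (k i).Ok ∧ ((R.sub (k i)).bad = false → k i ∈ U ∧
      (dom (k i)).mem (x i) ∧ x i % P.md = (k i).res % P.md))
    (g11 : ∑ i ∈ s, (k i).w * (k i).a * (k i).a = R.g11) (g12 : ∑ i ∈ s, (k i).w * (k i).a * (k i).b = R.g12)
    (g13 : ∑ i ∈ s, (k i).w * (k i).a * (k i).c = R.g13) (g22 : ∑ i ∈ s, (k i).w * (k i).b * (k i).b = R.g22)
    (g23 : ∑ i ∈ s, (k i).w * (k i).b * (k i).c = R.g23) (g33 : ∑ i ∈ s, (k i).w * (k i).c * (k i).c = R.g33)
    (gp : ∑ i ∈ s, (k i).p = R.p) (gr : ∑ i ∈ s, (k i).r = R.r)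
    (l1 : ∑ i ∈ s, (k i).w * (k i).a * x i = P.l1) (l2 : ∑ i ∈ s, (k i).w * (k i).b * x i = P.l2)
    (l3 : ∑ i ∈ s, (k i).w * (k i).c * x i = P.l3) (ε : ℚ)
    (hε : 0 < P.dn ∧ (P.elo : ℚ) < P.dn * ε ∧ (P.ehi = 0 ∨ P.dn * ε < P.ehi))
    (c1 : ∑ i ∈ s, ((k i).q1 : ℚ) / x i = P.c1 - ε * P.e1) (c2 : ∑ i ∈ s, ((k i).q2 : ℚ) / x i = P.c2 - ε * P.e2)
    (c3 : ∑ i ∈ s, ((k i).q3 : ℚ) / x i = P.c3 - ε * P.e3) : False := by
  classical
  have hg : gram (s.toList.map k) = R := by
    rw [gram_eq]; simp only [List.map_map, Function.comp_def, Finset.sum_map_toList, *]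
  have hok : ∀ u ∈ s.toList.map k, u.Ok := fun u hu => by
    obtain ⟨i, hi, rfl⟩ := List.mem_map.1 hu; exact (hk i (Finset.mem_toList.1 hi)).1
  have := go_sound (md := P.md) (dom := dom) U (s.toList.map fun i => (k i, x i)) [] [] (fun e he => ?_)
    (by simp [Valid]) rfl (by rw [List.map_map]; exact hg ▸ hgo)
  swap
  · obtain ⟨i, hi, rfl⟩ := List.mem_map.1 he
    have hm : k i ∈ s.toList.map k := List.mem_map_of_mem hi
    have h2 := (hk i (Finset.mem_toList.1 hi)).2 (by
      rw [← hg, gram_perm (List.perm_cons_erase hm), gram, Bud.add_sub]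
      exact (good_gram fun u hu => hok u (List.mem_of_mem_erase hu)).not_bad)
    exact ⟨h2.1, hok _ hm, h2.2⟩
  obtain ⟨A, S, a1, a2, a3, a4⟩ := this
  obtain ⟨n, -, hn⟩ := List.any_eq_true.1 (List.all_eq_true.1 hck S (of_decide_eq_true a1))
  obtain ⟨m, hn⟩ := Option.isSome_iff_exists.1 hn
  refine chk_sound hm _ a2 ⟨ε, hε, fun a b c => ⟨?_, ?_⟩⟩ (a3 ▸ hn) <;> beta_reduce <;> rw [a4]
  · simp only [sA, sL, List.map_nil, List.sum_nil, zero_add, List.map_map, Function.comp_def,
      Finset.sum_map_toList, ← l1, ← l2, ← l3, Finset.mul_sum, ← Finset.sum_add_distrib, Kd.lin]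
    push_cast
    exact Finset.sum_congr rfl fun i _ => by ring
  · simp only [sA, sL, List.map_nil, List.sum_nil, zero_add, List.map_map, Function.comp_def,
      Finset.sum_map_toList, Kd.rc]
    have : ∑ i ∈ s, ((a * (k i).q1 + b * (k i).q2 + c * (k i).q3 : ℤ) : ℚ) / x i = a * ∑ i ∈ s, ((k i).q1 : ℚ) / x i +
        b * ∑ i ∈ s, ((k i).q2 : ℚ) / x i + c * ∑ i ∈ s, ((k i).q3 : ℚ) / x i := by
      simp only [Finset.mul_sum, ← Finset.sum_add_distrib]
      push_cast
      exact Finset.sum_congr rfl fun i _ => by ring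
    rw [this, c1, c2, c3]; push_cast; ring

end CA.Ly
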